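/-
The transvections of `PSU₄(2)` on `F4`.
-/
import Mathlib
import Cfsg.Agent.S0283
import Cfsg.Agent.S0280
import Cfsg.Agent.S0815
import Cfsg.Agent.Lib.Fischer.Basic
import Cfsg.Agent.Lib.Fischer.M22.Bridge
import Cfsg.Agent.Lib.Classical.Herm.Class

set_option autoImplicit false
set_option linter.unusedSectionVars false
set_option linter.unusedSimpArgs false
set_option linter.unusedVariables false
set_option maxRecDepth 100000

namespace Cfsg.Agent.Lib.Fischer.M22.Pair.U4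

open scoped Matrix
open Cfsg Cfsg.Agent.Lib.Compute.GF4 Cfsg.Agent.Lib.Fischer.Basic
open Cfsg.Agent.Lib.Classical.Herm.Basic Cfsg.Agent.Lib.Classical.Herm.Form
open Cfsg.Agent.Lib.Classical.Herm.GU Cfsg.Agent.Lib.Classical.Herm.SU
open Cfsg.Agent.Lib.Classical.Herm.Tv Cfsg.Agent.Lib.Classical.Herm.Comm
open Cfsg.Agent.Lib.Classical.Herm.Class

local notation "⟪" x ", " y "⟫" => hermForm 4 F4 2 x y

/-- The group `SU₄(2)` on `F4`. -/
abbrev S := SU 4 F4 2

/-- The group `PSU₄(2)` on `F4`. -/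
abbrev PS := PSU 4 F4 2

abbrev mkS : S →* PS := QuotientGroup.mk' (Subgroup.center S)

theorem hF4 : Fintype.card F4 = 2 ^ 2 := rfl

theorem hc1 : (1 : F4) + 1 ^ 2 = 0 := by decide

theorem cube_eq_one : ∀ c : F4, c ≠ 0 → c * c ^ 2 = 1 := by decide

/-- The unitary transvection with parameter one. -/
noncomputable def tauS (v : Fin 4 → F4) (hv : ⟪v, v⟫ = 0) : S := tv hF4 hv hc1

theorem act_tauS (v : Fin 4 → F4) (hv : ⟪v, v⟫ = 0) (x : Fin 4 → F4) : act (tauS v hv) x = x + ⟪x, v⟫ • v := by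
  unfold tauS
  rw [act_tv, one_mul]

theorem add_self_F4 : ∀ x : F4, x + x = 0 := by decide

theorem add_self_vec (x : Fin 4 → F4) : x + x = 0 := by
  funext i
  exact add_self_F4 _

theorem tauS_sq (v : Fin 4 → F4) (hv : ⟪v, v⟫ = 0) : tauS v hv * tauS v hv = 1 := by
  apply ext_act
  intro x
  rw [act_mul, act_tauS, act_tauS, hermForm_add_left, hermForm_smul_left, hv, mul_zero, add_zero, act_one, add_assoc,
    add_self_vec, add_zero]

theorem tauS_inv (v : Fin 4 → F4) (hv : ⟪v, v⟫ = 0) : (tauS v hv)⁻¹ = tauS v hv :=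
  inv_eq_of_mul_eq_one_left (tauS_sq v hv)

theorem tauS_smul {c : F4} (hc : c ≠ 0) (v : Fin 4 → F4) (hv : ⟪v, v⟫ = 0) (hv' : ⟪c • v, c • v⟫ = 0) :
    tauS (c • v) hv' = tauS v hv := by
  apply ext_act
  intro x
  rw [act_tauS, act_tauS, hermForm_smul_right, smul_smul]
  congr 2
  have h := cube_eq_one c hc
  calc c ^ 2 * ⟪x, v⟫ * c = (c * c ^ 2) * ⟪x, v⟫ := by ring
    _ = _ := by rw [h, one_mul]

theorem tauS_congr {v v' : Fin 4 → F4} (h : v = v') (hv : ⟪v, v⟫ = 0) (hv' : ⟪v', v'⟫ = 0) : tauS v hv = tauS v' hv' := by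
  subst h
  rfl

theorem conj_tauS (g : S) (v : Fin 4 → F4) (hv : ⟪v, v⟫ = 0) (hgv : ⟪act g v, act g v⟫ = 0) :
    g * tauS v hv * g⁻¹ = tauS (act g v) hgv :=
  conj_tv hF4 g hv hgv hc1

theorem mat_inj {a b : S} (h : mat a = mat b) : a = b := Subtype.ext (Subtype.ext h)

theorem exists_perp2 (u v : Fin 4 → F4) : ∃ x : Fin 4 → F4, x ≠ 0 ∧ ⟪x, u⟫ = 0 ∧ ⟪x, v⟫ = 0 := by
  obtain ⟨x, hx, h⟩ := exists_perp_ne_zero (n := 4) (F := F4) (q := 2) (k := 2) (by norm_num) ![u, v]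
  exact ⟨x, hx, h 0, h 1⟩

theorem eq_of_mk_eq {a b : S} (h : mkS a = mkS b) {x : Fin 4 → F4} (hx : x ≠ 0) (ha : act a x = x) (hb : act b x = x) : a = b := by
  have h1 : a⁻¹ * b ∈ Subgroup.center S := QuotientGroup.eq.1 h
  obtain ⟨c, hc⟩ := center_scalar hF4 _ h1
  have h2 : act (a⁻¹ * b) x = x := by
    rw [act_mul, hb]
    have h := act_inv_act a x
    rwa [ha] at h
  have h3 : act (a⁻¹ * b) x = c • x := by
    show ((a⁻¹ * b : S) : Matrix.SpecialLinearGroup (Fin 4) F4).1 *ᵥ x = _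
    rw [hc, scalar_mulVec']
  rw [h3] at h2
  have h4 : (c - 1) • x = 0 := by
    rw [sub_smul, one_smul, h2, sub_self]
  have h5 : c = 1 := by
    rcases smul_eq_zero.1 h4 with h6 | h6
    · exact sub_eq_zero.1 h6
    · exact absurd h6 hx
  have h6 : a⁻¹ * b = 1 := by
    apply mat_inj
    show ((a⁻¹ * b : S) : Matrix.SpecialLinearGroup (Fin 4) F4).1 = (1 : Matrix (Fin 4) (Fin 4) F4)
    rw [hc, h5]
    ext i j
    simp [Matrix.scalar_apply, Matrix.diagonal_apply, Matrix.one_apply]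
  exact (inv_mul_eq_one.1 h6)

theorem act_tauS_of_perp {v x : Fin 4 → F4} (hv : ⟪v, v⟫ = 0) (h : ⟪x, v⟫ = 0) : act (tauS v hv) x = x := by
  rw [act_tauS, h, zero_smul, add_zero]

/-- Equality of images of transvections implies equality of transvections. -/
theorem tau_eq_of_mk_eq {v v' : Fin 4 → F4} (hv : ⟪v, v⟫ = 0) (hv' : ⟪v', v'⟫ = 0)
    (h : mkS (tauS v hv) = mkS (tauS v' hv')) : tauS v hv = tauS v' hv' := by
  obtain ⟨x, hx, h1, h2⟩ := exists_perp2 v v'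
  exact eq_of_mk_eq h hx (act_tauS_of_perp hv h1) (act_tauS_of_perp hv' h2)

theorem herm_symm_zero {x y : Fin 4 → F4} (h : ⟪x, y⟫ = 0) : ⟪y, x⟫ = 0 :=
  hermForm_symm_zero hF4 h

theorem tauS_comm_of_perp {v w : Fin 4 → F4} (hv : ⟪v, v⟫ = 0) (hw : ⟪w, w⟫ = 0) (h : ⟪v, w⟫ = 0) :
    tauS v hv * tauS w hw = tauS w hw * tauS v hv := by
  apply ext_act
  intro x
  have h' := herm_symm_zero h
  rw [act_mul, act_mul, act_tauS, act_tauS, act_tauS, act_tauS]
  simp only [hermForm_add_left, hermForm_smul_left, h, h', mul_zero, add_zero]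
  abel

theorem hermForm_smul_smul (c : F4) (u v : Fin 4 → F4) :
    hermForm 4 F4 2 (c • u) (c • v) = (c * c ^ 2) * hermForm 4 F4 2 u v := by
  simp only [hermForm, Finset.mul_sum, Pi.smul_apply, smul_eq_mul]
  apply Finset.sum_congr rfl
  intro i _
  ring

open _root_.Classical in
/-- The image of a transvection. -/
noncomputable def T (v : Fin 4 → F4) : PS := if h : ⟪v, v⟫ = 0 then mkS (tauS v h) else 1

theorem T_eq {v : Fin 4 → F4} (hv : ⟪v, v⟫ = 0) : T v = mkS (tauS v hv) := by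
  unfold T
  rw [dif_pos hv]

/-- The isotropic non-zero vectors. -/
def Iso (v : Fin 4 → F4) : Prop := v ≠ 0 ∧ ⟪v, v⟫ = 0

theorem T_sq {v : Fin 4 → F4} (hv : ⟪v, v⟫ = 0) : T v * T v = 1 := by
  rw [T_eq hv, ← map_mul, tauS_sq, map_one]

theorem T_inv {v : Fin 4 → F4} (hv : ⟪v, v⟫ = 0) : (T v)⁻¹ = T v := inv_eq_of_mul_eq_one_left (T_sq hv)

theorem iso_smul {c : F4} {v : Fin 4 → F4} (hv : ⟪v, v⟫ = 0) : ⟪c • v, c • v⟫ = 0 := by
  rw [hermForm_smul_smul, hv, mul_zero]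

theorem T_smul {c : F4} (hc : c ≠ 0) {v : Fin 4 → F4} (hv : ⟪v, v⟫ = 0) : T (c • v) = T v := by
  rw [T_eq hv, T_eq (iso_smul hv), tauS_smul hc v hv]

theorem T_congr_smul {c : F4} (hc : c ≠ 0) {v w : Fin 4 → F4} (hv : ⟪v, v⟫ = 0) (h : w = c • v) : T w = T v := by
  rw [h, T_smul hc hv]

theorem T_ne_one {v : Fin 4 → F4} (hv : Iso v) : T v ≠ 1 := by
  intro h
  rw [T_eq hv.2] at h
  have h1 : mkS (tauS v hv.2) = mkS 1 := by rw [h, map_one]
  obtain ⟨x, hx, h2, -⟩ := exists_perp2 v v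
  have h3 := eq_of_mk_eq h1 hx (act_tauS_of_perp _ h2) (act_one x)
  obtain ⟨y, hy⟩ : ∃ y, ⟪y, v⟫ ≠ 0 := by
    by_contra hcon
    push Not at hcon
    exact hv.1 (hermForm_nondegenerate_right hF4 4 _ hcon)
  have h4 : act (tauS v hv.2) y = y := by rw [h3, act_one]
  rw [act_tauS] at h4
  have h5 : ⟪y, v⟫ • v = 0 := by
    exact add_left_cancel (a := y) (by rw [h4, add_zero])
  rcases smul_eq_zero.1 h5 with h6 | h6
  · exact hy h6
  · exact hv.1 h6

theorem T_inj {v v' : Fin 4 → F4} (hv : Iso v) (hv' : Iso v') (h : T v = T v') : ∃ c : F4, c ≠ 0 ∧ v = c • v' := by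
  rw [T_eq hv.2, T_eq hv'.2] at h
  have h1 := tau_eq_of_mk_eq _ _ h
  obtain ⟨y, hy⟩ : ∃ y, ⟪y, v'⟫ ≠ 0 := by
    by_contra hcon
    push Not at hcon
    exact hv'.1 (hermForm_nondegenerate_right hF4 4 _ hcon)
  have h2 : act (tauS v hv.2) y = act (tauS v' hv'.2) y := by rw [h1]
  rw [act_tauS, act_tauS] at h2
  have h3 := add_left_cancel h2
  have hne : ⟪y, v⟫ ≠ 0 := by
    intro h0
    rw [h0, zero_smul] at h3
    rcases smul_eq_zero.1 h3.symm with h6 | h6
    · exact hy h6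
    · exact hv'.1 h6
  refine ⟨(⟪y, v⟫)⁻¹ * ⟪y, v'⟫, mul_ne_zero (inv_ne_zero hne) hy, ?_⟩
  rw [mul_smul, ← h3, smul_smul, inv_mul_cancel₀ hne, one_smul]

theorem T_comm {v v' : Fin 4 → F4} (hv : Iso v) (hv' : Iso v') : Commute (T v) (T v') ↔ ⟪v, v'⟫ = 0 := by
  rw [T_eq hv.2, T_eq hv'.2]
  constructor
  · intro h
    obtain ⟨x, hx, h1, h2⟩ := exists_perp2 v v'
    have h3 : tauS v hv.2 * tauS v' hv'.2 = tauS v' hv'.2 * tauS v hv.2 := by
      apply eq_of_mk_eq (x := x)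
      · rw [map_mul, map_mul]
        exact h
      · exact hx
      · rw [act_mul, act_tauS_of_perp hv'.2 h2, act_tauS_of_perp hv.2 h1]
      · rw [act_mul, act_tauS_of_perp hv.2 h1, act_tauS_of_perp hv'.2 h2]
    have h4 : act (tauS v hv.2 * tauS v' hv'.2) v = act (tauS v' hv'.2 * tauS v hv.2) v := by rw [h3]
    rw [act_mul, act_mul, act_tauS_of_perp hv.2 hv.2, act_tauS, act_tauS, hermForm_add_left, hermForm_smul_left] at h4
    by_contra hne
    have h5 : ⟪v', v⟫ ≠ 0 := fun h6 => hne (herm_symm_zero h6)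
    have h6 : (⟪v, v'⟫ * ⟪v', v⟫) • v = 0 := by
      have h7 : v + ⟪v, v'⟫ • v' + (⟪v, v⟫ + ⟪v, v'⟫ * ⟪v', v⟫) • v = v + ⟪v, v'⟫ • v' := h4
      rw [hv.2, zero_add] at h7
      exact add_left_cancel (a := v + ⟪v, v'⟫ • v') (by rw [h7, add_zero])
    rcases smul_eq_zero.1 h6 with h7 | h7
    · exact (mul_ne_zero hne h5) h7
    · exact hv.1 h7
  · intro h
    show _ * _ = _ * _
    rw [← map_mul, ← map_mul, tauS_comm_of_perp hv.2 hv'.2 h]

theorem add_sq_F4 : ∀ a b : F4, (a + b) ^ 2 = a ^ 2 + b ^ 2 := by decide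

theorem mul_sq_F4 : ∀ a b : F4, (a * b ^ 2) ^ 2 = b * a ^ 2 := by decide

theorem herm_conj_symm (v w : Fin 4 → F4) : ⟪w, v⟫ = ⟪v, w⟫ ^ 2 := by
  unfold hermForm
  rw [Fin.sum_univ_four, Fin.sum_univ_four, add_sq_F4, add_sq_F4, add_sq_F4, mul_sq_F4, mul_sq_F4, mul_sq_F4, mul_sq_F4]

/-- The image of a vector under a transvection is isotropic. -/
theorem iso_act {v w : Fin 4 → F4} (hv : ⟪v, v⟫ = 0) (hw : ⟪w, w⟫ = 0) : ⟪w + ⟪w, v⟫ • v, w + ⟪w, v⟫ • v⟫ = 0 := by
  have h := h_act (tauS v hv) w w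
  rw [act_tauS, hw] at h
  exact h

/-- **Conjugation of transvections.** -/
theorem T_conj {v w : Fin 4 → F4} (hv : ⟪v, v⟫ = 0) (hw : ⟪w, w⟫ = 0) : T v * T w * T v = T (w + ⟪w, v⟫ • v) := by
  have hi := iso_act hv hw
  have e : act (tauS v hv) w = w + ⟪w, v⟫ • v := act_tauS v hv w
  have hi' : ⟪act (tauS v hv) w, act (tauS v hv) w⟫ = 0 := by
    rw [e]
    exact hi
  rw [T_eq hv, T_eq hw, T_eq hi, ← tauS_congr e hi' hi, ← conj_tauS (tauS v hv) w hw hi', tauS_inv, map_mul, map_mul]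

theorem T_br {v w : Fin 4 → F4} (hv : Iso v) (hw : Iso w) : Commute (T v) (T w) ∨ T v * T w * T v = T w * T v * T w := by
  by_cases h : ⟪v, w⟫ = 0
  · exact Or.inl ((T_comm hv hw).2 h)
  · right
    rw [T_conj hv.2 hw.2, T_conj hw.2 hv.2]
    have h' : ⟪w, v⟫ ≠ 0 := fun k => h (herm_symm_zero k)
    have hcc : ⟪w, v⟫ = ⟪v, w⟫ ^ 2 := by
      exact herm_conj_symm v w
    apply T_congr_smul (c := ⟪w, v⟫) h' (iso_act hw.2 hv.2)
    funext i
    simp only [Pi.add_apply, Pi.smul_apply, smul_eq_mul]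
    have h1 : ⟪w, v⟫ * ⟪v, w⟫ = 1 := by
      rw [hcc, mul_comm]
      exact cube_eq_one _ h
    rw [mul_add, ← mul_assoc, h1, one_mul, add_comm]

/-- The set of transvections. -/
def D4 : Set PS := {x | ∃ v, Iso v ∧ x = T v}

theorem T_mem {v : Fin 4 → F4} (hv : Iso v) : T v ∈ D4 := ⟨v, hv, rfl⟩

theorem D4_conj (g : PS) {x : PS} (hx : x ∈ D4) : g * x * g⁻¹ ∈ D4 := by
  obtain ⟨v, hv, rfl⟩ := hx
  obtain ⟨s, rfl⟩ := QuotientGroup.mk'_surjective (Subgroup.center S) g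
  have hw : ⟪act s v, act s v⟫ = 0 := by
    rw [h_act]
    exact hv.2
  refine ⟨act s v, ⟨act_ne_zero s hv.1, hw⟩, ?_⟩
  rw [T_eq hv.2, T_eq hw, ← conj_tauS s _ hv.2 hw]
  simp only [map_mul, map_inv]

theorem tt4 : TT D4 where
  sq := by
    rintro _ ⟨v, hv, rfl⟩
    exact T_sq hv.2
  ne_one := by
    rintro _ ⟨v, hv, rfl⟩
    exact T_ne_one hv
  br := by
    rintro _ ⟨v, hv, rfl⟩ _ ⟨w, hw, rfl⟩
    exact T_br hv hw
  conj := fun g _ hx => D4_conj g hx

theorem simple4 : IsSimpleGroup PS :=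
  Cfsg.Agent.S0283.result (F := F4) (q := 2) hF4 4 (by norm_num) (by norm_num)

/-- An isotropic vector. -/
def v0 : Fin 4 → F4 := ![1, 1, 0, 0]

theorem iso_v0 : Iso v0 := by
  refine ⟨?_, ?_⟩
  · intro h
    have := congrFun h 0
    exact absurd this (by decide)
  · decide +kernel

def v1 : Fin 4 → F4 := ![1, 0, 1, 0]

theorem iso_v1 : Iso v1 := by
  refine ⟨?_, ?_⟩
  · intro h
    have := congrFun h 0
    exact absurd this (by decide)
  · decide +kernel

theorem not_comm_01 : ¬ Commute (T v0) (T v1) := by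
  rw [T_comm iso_v0 iso_v1]
  decide +kernel

theorem closure4 : Subgroup.closure D4 = ⊤ := by
  haveI := simple4
  have hn : (Subgroup.closure D4).Normal := by
    refine ⟨fun x hx g => ?_⟩
    induction hx using Subgroup.closure_induction with
    | mem y hy => exact Subgroup.subset_closure (D4_conj g hy)
    | one => simp
    | mul x y _ _ hx hy =>
      have e : g * (x * y) * g⁻¹ = (g * x * g⁻¹) * (g * y * g⁻¹) := by group
      rw [e]
      exact Subgroup.mul_mem _ hx hy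
    | inv x _ hx =>
      have e : g * x⁻¹ * g⁻¹ = (g * x * g⁻¹)⁻¹ := by group
      rw [e]
      exact Subgroup.inv_mem _ hx
  rcases IsSimpleGroup.eq_bot_or_eq_top_of_normal _ hn with h | h
  · exfalso
    have h1 : T v0 ∈ Subgroup.closure D4 := Subgroup.subset_closure (T_mem iso_v0)
    rw [h, Subgroup.mem_bot] at h1
    exact T_ne_one iso_v0 h1
  · exact h

theorem center4 : Subgroup.center PS = ⊥ := by
  haveI := simple4
  rcases IsSimpleGroup.eq_bot_or_eq_top_of_normal _ (inferInstance : (Subgroup.center PS).Normal) with h | h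
  · exact h
  · exfalso
    apply not_comm_01
    have h1 : T v0 ∈ Subgroup.center PS := by rw [h]; trivial
    exact (Subgroup.mem_center_iff.1 h1 (T v1)).symm

theorem card4 : Nat.card PS = 25920 := by
  have h := Cfsg.Agent.S0280.result (F := F4) (q := 2) (by simpa using hF4) 4 (by norm_num)
  have e : (∏ i ∈ Finset.range 4, (if Even i then 2 ^ (i + 1) + 1 else 2 ^ (i + 1) - 1)) = 1215 := by decide
  have e2 : 2 ^ (4 * (4 - 1) / 2) = 64 := by norm_num
  have g : Nat.gcd 4 (2 + 1) = 1 := by norm_num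
  rw [e, e2, g] at h
  have h' : 1 * ((2 + 1) * Nat.card PS) = 64 * 1215 := h
  omega

theorem card_aut4 : Nat.card (MulAut PS) = 51840 := by
  haveI : Fact (Nat.Prime 2) := ⟨Nat.prime_two⟩
  have h := Cfsg.Agent.S0815.result (F := F4) (p := 2) (f := 1) (by norm_num) (q := 2) (by norm_num) hF4 4 (by norm_num) (by norm_num)
  rw [h, card4]
  norm_num [Nat.gcd]

open scoped commutatorElement in
/-- The perfectness of `PSU₄(2)`. -/
theorem commutator4 : commutator PS = ⊤ := by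
  haveI := simple4
  rcases IsSimpleGroup.eq_bot_or_eq_top_of_normal _ (inferInstance : (commutator PS).Normal) with h | h
  · exfalso
    apply not_comm_01
    show _ * _ = _ * _
    have h1 : ⁅T v0, T v1⁆ ∈ commutator PS := by
      rw [commutator_def]
      exact Subgroup.commutator_mem_commutator (Subgroup.mem_top _) (Subgroup.mem_top _)
    rw [h, Subgroup.mem_bot] at h1
    exact commutatorElement_eq_one_iff_mul_comm.1 h1
  · exact h

end Cfsg.Agent.Lib.Fischer.M22.Pair.U4
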