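/-
The centralizer of a product of two commuting transpositions of `G0`: its action on the transvections of `PSU₄(2)`.

The members of `D0` commuting with `a0` and `t₆` (180 of them) lie in 45 classes, the points of the hermitian space `p^⊥/p` for the point `p` of `t₆`.
-/
import Mathlib
import Cfsg.Agent.Lib.Fischer.M22.ExplicitFact
import Cfsg.Agent.Lib.Fischer.M22.Pair.U4
import Cfsg.Agent.Lib.Fischer.M22.Compare

set_option autoImplicit false
set_option linter.unusedSectionVars false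
set_option linter.unusedSimpArgs false
set_option linter.unusedVariables false
set_option maxRecDepth 100000

namespace Cfsg.Agent.Lib.Fischer.M22.Pair

open scoped Matrix
open Cfsg Cfsg.Agent.Lib.Compute.GF4 Cfsg.Agent.Lib.Fischer.Basic Cfsg.Agent.Lib.Fischer.Local
open Cfsg.Agent.Lib.Fischer.M22.Model Cfsg.Agent.Lib.Fischer.M22.Bridge
open Cfsg.Agent.Lib.Fischer.M22.Explicit
open Cfsg.Agent.Lib.Classical.Herm.Form

/-! ### Vectors -/

/-- The last four coordinates. -/
def w (c : ℕ) : Fin 4 → F4 := ![vec c 2, vec c 3, vec c 4, vec c 5]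

/-- The codes of the points perpendicular to the point `5`. -/
def PP (c : ℕ) : Prop := isPt c = true ∧ perp 5 c = true ∧ c ≠ 5

theorem sq_add_sq : ∀ a b : F4, a ^ 2 + b ^ 2 = 0 → a = b := by decide

theorem vec_5' : vec 5 = ![1, 1, 0, 0, 0, 0] := by decide +kernel

theorem vec_01 {c : ℕ} (h : perp 5 c = true) : vec c 0 = vec c 1 := by
  have h1 := (perp_iff 5 c).1 h
  rw [vec_5'] at h1
  apply sq_add_sq
  simpa [hermForm, Fin.sum_univ_six] using h1

theorem herm_split {c r : ℕ} (hc : perp 5 c = true) (hr : perp 5 r = true) :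
    hermForm 6 F4 2 (vec c) (vec r) = hermForm 4 F4 2 (w c) (w r) := by
  have h1 := vec_01 hc
  have h2 := vec_01 hr
  unfold hermForm
  rw [Fin.sum_univ_six, Fin.sum_univ_four]
  show vec c 0 * vec r 0 ^ 2 + vec c 1 * vec r 1 ^ 2 + vec c 2 * vec r 2 ^ 2 + vec c 3 * vec r 3 ^ 2 +
    vec c 4 * vec r 4 ^ 2 + vec c 5 * vec r 5 ^ 2 =
    vec c 2 * vec r 2 ^ 2 + vec c 3 * vec r 3 ^ 2 + vec c 4 * vec r 4 ^ 2 + vec c 5 * vec r 5 ^ 2
  rw [h1, h2, U4.add_self_F4, zero_add]

theorem w_ne {c : ℕ} (h : PP c) : w c ≠ 0 := by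
  intro h0
  have h2 : vec c 2 = 0 := congrFun h0 0
  have h3 : vec c 3 = 0 := congrFun h0 1
  have h4 : vec c 4 = 0 := congrFun h0 2
  have h5 : vec c 5 = 0 := congrFun h0 3
  have h1 := vec_01 h.2.1
  apply h.2.2
  symm
  apply pt_eq_of_smul isPt_5 h.1 (c := vec c 1)
  rw [vec_5']
  funext i
  fin_cases i
  · simpa using h1
  · simp
  · simpa using h2
  · simpa using h3
  · simpa using h4
  · simpa using h5

theorem iso_w {c : ℕ} (h : PP c) : U4.Iso (w c) :=
  ⟨w_ne h, by rw [← herm_split h.2.1 h.2.1]; exact isPt_self h.1⟩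

theorem perp_w {c r : ℕ} (hc : PP c) (hr : PP r) : perp c r = true ↔ hermForm 4 F4 2 (w c) (w r) = 0 := by
  rw [perp_iff, herm_split hc.2.1 hr.2.1]

theorem T_w_comm {c r : ℕ} (hc : PP c) (hr : PP r) : Commute (U4.T (w c)) (U4.T (w r)) ↔ perp c r = true := by
  rw [U4.T_comm (iso_w hc) (iso_w hr), perp_w hc hr]

theorem norm_zero' : Model.norm 0 = 0 := by decide

theorem T_w_tp {c r : ℕ} (hc : PP c) (hr : PP r) : U4.T (w (tp c r)) = U4.T (w c) * U4.T (w r) * U4.T (w c) := by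
  have hpt : isPt (tp c r) = true := tp_isPt hc.1 hr.1
  have hlt : tvec c r < 4096 := tvec_lt (isPt_lt hr.1)
  have hne : tvec c r ≠ 0 := by
    intro h0
    have h1 : tp c r = 0 := by
      show Model.norm (tvec c r) = 0
      rw [h0, norm_zero']
    exact isPt_ne_zero hpt h1
  have hl := lead_d2f_ne hlt hne
  rw [U4.T_conj (iso_w hc).2 (iso_w hr).2]
  apply U4.T_congr_smul (c := (d2f (lead (tvec c r)))⁻¹) (inv_ne_zero hl) (U4.iso_act (iso_w hc).2 (iso_w hr).2)
  have hv : vec (tp c r) = (d2f (lead (tvec c r)))⁻¹ • (vec r + hermForm 6 F4 2 (vec r) (vec c) • vec c) := by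
    show vec (Model.norm (tvec c r)) = _
    rw [vec_norm, vec_tvec]
  rw [herm_split hr.2.1 hc.2.1] at hv
  funext i
  fin_cases i
  · exact congrFun hv 2
  · exact congrFun hv 3
  · exact congrFun hv 4
  · exact congrFun hv 5


/-! ### Separation by signatures -/

/-- The witnesses. -/
def W : List ℕ := [4005, 2069, 3829, 3957, 1488, 165, 2448, 2101, 2309]

/-- The signature of a code. -/
def sig (c : ℕ) : List Bool := W.map (perp c)

/-- The last four coordinates of `c'` are a multiple of those of `c`. -/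
def same (c c' : ℕ) : Bool :=
  [1, 2, 3].any fun k => [2, 3, 4, 5].all fun i => Nat.beq (dig c' i) (mul4 k (dig c i))

theorem same_sound {c c' : ℕ} (h : same c c' = true) : ∃ k : F4, k ≠ 0 ∧ w c' = k • w c := by
  unfold same at h
  obtain ⟨k, hk, h1⟩ := List.any_eq_true.1 h
  have hk4 : k < 4 := by
    simp only [List.mem_cons, List.not_mem_nil, or_false] at hk
    omega
  refine ⟨d2f k, ?_, ?_⟩
  · simp only [List.mem_cons, List.not_mem_nil, or_false] at hk
    rcases hk with rfl | rfl | rfl <;> decide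
  · have key : ∀ i ∈ [2, 3, 4, 5], d2f (dig c' i) = d2f k * d2f (dig c i) := by
      intro i hi
      have h2 := Nat.eq_of_beq_eq_true (List.all_eq_true.1 h1 i hi)
      rw [h2, d2f_mul4 hk4 (dig_lt _ _)]
    funext i
    fin_cases i
    · exact key 2 (by simp)
    · exact key 3 (by simp)
    · exact key 4 (by simp)
    · exact key 5 (by simp)

theorem T_same {c c' : ℕ} (hc : PP c) (h : same c c' = true) : U4.T (w c') = U4.T (w c) := by
  obtain ⟨k, hk, e⟩ := same_sound h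
  exact U4.T_congr_smul hk (iso_w hc).2 e

/-- Representatives of the classes. -/
def Reps : List ℕ := [80, 117, 101, 272, 320, 309, 453, 293, 389, 1040, 1088, 1280, 1360, 1424, 1488, 1616, 1680, 1744, 1872, 1936, 2000, 1077, 1221, 1797, 2037, 1909, 1973, 1525, 1397, 1461, 1781, 1653, 1717, 1061, 1157, 1541, 1701, 1765, 1637, 1957, 2021, 1893, 1445, 1509, 1381]

theorem sep_chk : L180.all (fun c => Reps.any fun r => sig r == sig c && same r c) = true := by decide +kernel

theorem reps_inj : Reps.all (fun r => Reps.all fun r' => sig r != sig r' || Nat.beq r r') = true := by decide +kernel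

theorem reps_PP : Reps.all (fun c => isPt c && perp 5 c && !Nat.beq c 5) = true := by decide +kernel

theorem W_PP : W.all (fun c => isPt c && perp 5 c && !Nat.beq c 5) = true := by decide +kernel

theorem PP_of_chk {c : ℕ} (h : (isPt c && perp 5 c && !Nat.beq c 5) = true) : PP c := by
  simp only [Bool.and_eq_true, Bool.not_eq_true'] at h
  exact ⟨h.1.1, h.1.2, Nat.ne_of_beq_eq_false h.2⟩

theorem mem_L180 {c : ℕ} (h : PP c) : c ∈ L180 := by
  have h1 := List.all_eq_true.1 t2_complete c (Cfsg.Agent.Lib.Fischer.M22.Fast.mem_PL.2 h.1)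
  simp only [Bool.or_eq_true, Bool.not_eq_true', Nat.beq_eq, h.2.1, List.contains_iff_mem] at h1
  simp only [Bool.true_eq_false, false_or] at h1
  rcases h1 with (h1 | h1) | h1
  · exact absurd h1 h.2.2
  · rw [h1]; exact List.mem_cons_self
  · exact List.mem_cons_of_mem _ h1

/-- The class of a code is determined by its signature. -/
theorem T_of_sig {c c' : ℕ} (hc : PP c) (hc' : PP c') (h : sig c = sig c') : U4.T (w c) = U4.T (w c') := by
  obtain ⟨r, hr, h1⟩ := List.any_eq_true.1 (List.all_eq_true.1 sep_chk c (mem_L180 hc))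
  obtain ⟨r', hr', h2⟩ := List.any_eq_true.1 (List.all_eq_true.1 sep_chk c' (mem_L180 hc'))
  simp only [Bool.and_eq_true, beq_iff_eq] at h1 h2
  have h3 := List.all_eq_true.1 (List.all_eq_true.1 reps_inj r hr) r' hr'
  have e : r = r' := by
    simp only [Bool.or_eq_true, bne_iff_ne, ne_eq, Nat.beq_eq] at h3
    rcases h3 with h3 | h3
    · exact absurd (by rw [h1.1, h2.1, h]) h3
    · exact h3
  subst e
  rw [T_same (PP_of_chk (List.all_eq_true.1 reps_PP r hr)) h1.2, T_same (PP_of_chk (List.all_eq_true.1 reps_PP r hr)) h2.2]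

/-! ### Labels -/

/-- The labels commuting with both `a0` and `t₆`. -/
def AA (p : Fin NN) : Prop := oid p = 2 ∧ perp 5 (code p) = true ∧ code p ≠ 5

theorem AA_PP {p : Fin NN} (h : AA p) : PP (code p) := ⟨isPt_code p.2 h.1, h.2⟩

/-- The transvection of a label. -/
noncomputable def cl (p : Fin NN) : U4.PS := U4.T (w (code p))

theorem cl_mem {p : Fin NN} (h : AA p) : cl p ∈ U4.D4 := U4.T_mem (iso_w (AA_PP h))

theorem cl_comm {p q : Fin NN} (hp : AA p) (hq : AA q) : Commute (cl p) (cl q) ↔ Commute (t p) (t q) := by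
  rw [comm_iff_perp hp.1 hq.1]
  exact T_w_comm (AA_PP hp) (AA_PP hq)

theorem cl_tp {p q : Fin NN} (hp : AA p) (hq : AA q) : cl (φ (t p) q) = cl p * cl q * cl p := by
  have h := key_tp p (by rw [hp.1]; omega) hp.1 q hq.1
  unfold cl
  rw [h]
  exact T_w_tp (AA_PP hp) (AA_PP hq)

/-- The label of a code. -/
theorem exists_label {c : ℕ} (hc : PP c) : ∃ p : Fin NN, AA p ∧ code p = c := by
  obtain ⟨h3, h4, h5⟩ := code_lbl hc.1
  refine ⟨⟨lbl c, h3⟩, ⟨h4, ?_, ?_⟩, h5⟩
  · rw [h5]; exact hc.2.1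
  · rw [h5]; exact hc.2.2

theorem cl_surj {y : U4.PS} (hy : y ∈ U4.D4) : ∃ p, AA p ∧ cl p = y := by
  obtain ⟨v, hv, rfl⟩ := hy
  let v6 : Fin 6 → F4 := ![0, 0, v 0, v 1, v 2, v 3]
  have h1 : v6 ≠ 0 := by
    intro h0
    apply hv.1
    funext i
    fin_cases i
    · exact congrFun h0 2
    · exact congrFun h0 3
    · exact congrFun h0 4
    · exact congrFun h0 5
  have h2 : hermForm 6 F4 2 v6 v6 = 0 := by
    have h3 := hv.2
    unfold hermForm at h3 ⊢
    rw [Fin.sum_univ_four] at h3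
    rw [Fin.sum_univ_six]
    show (0 : F4) * 0 ^ 2 + 0 * 0 ^ 2 + v 0 * v 0 ^ 2 + v 1 * v 1 ^ 2 + v 2 * v 2 ^ 2 + v 3 * v 3 ^ 2 = 0
    have h4 : (0 : F4) * 0 ^ 2 = 0 := by decide
    rw [h4, add_zero, zero_add]
    exact h3
  obtain ⟨c, k, hc, hk, hvc⟩ := exists_pt_of_iso h1 h2
  have hv0 : vec c 0 = 0 := by
    rw [hvc]
    show k * 0 = 0
    exact mul_zero k
  have hv1 : vec c 1 = 0 := by
    rw [hvc]
    show k * 0 = 0
    exact mul_zero k
  have hp : perp 5 c = true := by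
    rw [perp_iff, vec_5']
    unfold hermForm
    rw [Fin.sum_univ_six, hv0, hv1]
    show (1 : F4) * 0 ^ 2 + 1 * 0 ^ 2 + 0 * _ + 0 * _ + 0 * _ + 0 * _ = 0
    simp
  have hc5 : c ≠ 5 := by
    rintro rfl
    rw [vec_5'] at hv0
    exact absurd hv0 (by decide)
  obtain ⟨p, hp1, hp2⟩ := exists_label (c := c) ⟨hc, hp, hc5⟩
  refine ⟨p, hp1, ?_⟩
  unfold cl
  rw [hp2]
  apply U4.T_congr_smul hk hv.2
  funext i
  fin_cases i
  · exact congrFun hvc 2
  · exact congrFun hvc 3
  · exact congrFun hvc 4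
  · exact congrFun hvc 5

/-- Two labels with the same commutation pattern on the labels have the same transvection. -/
theorem sep {p q : Fin NN} (hp : AA p) (hq : AA q) (h : ∀ r, AA r → (Commute (t p) (t r) ↔ Commute (t q) (t r))) :
    cl p = cl q := by
  apply T_of_sig (AA_PP hp) (AA_PP hq)
  apply List.map_congr_left
  intro r hr
  obtain ⟨r', h1, h2⟩ := exists_label (PP_of_chk (List.all_eq_true.1 W_PP r hr))
  have h3 := h r' h1
  rw [comm_iff_perp hp.1 h1.1, comm_iff_perp hq.1 h1.1, h2] at h3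
  exact Bool.eq_iff_iff.2 h3

/-- Equal transvections have equal signatures. -/
theorem comm_of_cl {p q r : Fin NN} (hp : AA p) (hq : AA q) (hr : AA r) (h : cl p = cl q) :
    Commute (t p) (t r) ↔ Commute (t q) (t r) := by
  rw [← cl_comm hp hr, ← cl_comm hq hr, h]

/-! ### The centralizers -/

theorem comm_a0_b0 : Commute a0 (t lb6) := by
  rw [comm_a0_t_iff, oid_lb6]
  omega

/-- The centralizer of the product. -/
def C0 : Subgroup G0 := Subgroup.centralizer ({a0 * t lb6} : Set G0)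

/-- The joint centralizer. -/
def K0 : Subgroup G0 := Subgroup.centralizer ({a0, t lb6} : Set G0)

theorem mem_C0 {c : G0} : c ∈ C0 ↔ Commute c (a0 * t lb6) := by
  rw [C0, Subgroup.mem_centralizer_singleton_iff]
  exact Iff.rfl

theorem mem_K0 {c : G0} : c ∈ K0 ↔ Commute c a0 ∧ Commute c (t lb6) := by
  rw [K0, Subgroup.mem_centralizer_iff]
  constructor
  · intro h
    exact ⟨(h a0 (by simp)).symm, (h _ (by simp)).symm⟩
  · rintro ⟨h1, h2⟩ x hx
    rcases hx with rfl | rfl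
    · exact h1.symm
    · exact h2.symm

theorem K0_le_C0 : K0 ≤ C0 := fun c hc => mem_C0.2 ((mem_K0.1 hc).1.mul_right (mem_K0.1 hc).2)

theorem conj_comm {c x y : G0} (h : Commute x y) : Commute (c * x * c⁻¹) (c * y * c⁻¹) := by
  show _ * _ = _ * _
  calc c * x * c⁻¹ * (c * y * c⁻¹) = c * (x * y) * c⁻¹ := by group
    _ = c * (y * x) * c⁻¹ := by rw [h.eq]
    _ = _ := by group

theorem conj_comm_iff {c x y : G0} : Commute (c * x * c⁻¹) (c * y * c⁻¹) ↔ Commute x y := by
  constructor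
  · intro h
    have := conj_comm (c := c⁻¹) h
    have e : ∀ z : G0, c⁻¹ * (c * z * c⁻¹) * c⁻¹⁻¹ = z := fun z => by group
    rwa [e, e] at this
  · exact conj_comm

theorem C_dich {c : G0} (hc : c ∈ C0) :
    (c * a0 * c⁻¹ = a0 ∧ c * t lb6 * c⁻¹ = t lb6) ∨ (c * a0 * c⁻¹ = t lb6 ∧ c * t lb6 * c⁻¹ = a0) := by
  have hc' := mem_C0.1 hc
  have e : (c * a0 * c⁻¹) * (c * t lb6 * c⁻¹) = a0 * tn 6 := by
    rw [tn_6']
    calc (c * a0 * c⁻¹) * (c * t lb6 * c⁻¹) = c * (a0 * t lb6) * c⁻¹ := by group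
      _ = (a0 * t lb6) * c * c⁻¹ := by rw [hc'.eq]
      _ = a0 * t lb6 := by group
  have := fp2_rep (D0_conj c _ a0_mem) (D0_conj c _ (t_mem lb6)) (conj_comm comm_a0_b0) e
  rwa [tn_6'] at this

theorem AA_iff (p : Fin NN) : AA p ↔ t p ≠ a0 ∧ t p ≠ t lb6 ∧ Commute a0 (t p) ∧ Commute (t lb6) (t p) := by
  have h1 : oid p = 2 ↔ t p ≠ a0 ∧ Commute a0 (t p) := by
    rw [← t_mem_Dlt_iff]
    exact ⟨fun h => h.2, fun h => ⟨t_mem p, h⟩⟩
  constructor
  · intro h
    obtain ⟨h2, h3⟩ := h1.1 h.1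
    refine ⟨h2, ?_, h3, ?_⟩
    · intro e
      have e' := t_inj e
      apply h.2.2
      rw [e', show code (lb6 : ℕ) = 5 from code_6]
    · rw [comm_iff_perp oid_lb6 h.1, show code (lb6 : ℕ) = 5 from code_6]
      exact h.2.1
  · rintro ⟨h2, h3, h4, h5⟩
    have h6 := h1.2 ⟨h2, h4⟩
    rw [comm_iff_perp oid_lb6 h6, show code (lb6 : ℕ) = 5 from code_6] at h5
    refine ⟨h6, h5, ?_⟩
    intro e
    apply h3
    rw [code_inj h6 oid_lb6 (by rw [e]; exact code_6.symm)]

theorem t_AA_mem {p : Fin NN} (h : AA p) : t p ∈ K0 := by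
  obtain ⟨-, -, h3, h4⟩ := (AA_iff p).1 h
  exact mem_K0.2 ⟨h3.symm, h4.symm⟩

theorem AA_conj {c : G0} (hc : c ∈ C0) {p : Fin NN} (h : AA p) : AA (φ c p) := by
  obtain ⟨h1, h2, h3, h4⟩ := (AA_iff p).1 h
  rw [AA_iff, ← t_conj]
  have inj : ∀ {x y : G0}, c * x * c⁻¹ = c * y * c⁻¹ → x = y := fun {x y} e => by
    simpa using e
  rcases C_dich hc with ⟨e1, e2⟩ | ⟨e1, e2⟩
  · refine ⟨fun k => h1 (inj (by rw [k, e1])), fun k => h2 (inj (by rw [k, e2])), ?_, ?_⟩
    · rw [← e1]; exact conj_comm h3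
    · rw [← e2]; exact conj_comm h4
  · refine ⟨fun k => h2 (inj (by rw [k, e2])), fun k => h1 (inj (by rw [k, e1])), ?_, ?_⟩
    · rw [← e2]; exact conj_comm h4
    · rw [← e1]; exact conj_comm h3

theorem comm_φ {c : G0} {p q : Fin NN} : Commute (t (φ c p)) (t (φ c q)) ↔ Commute (t p) (t q) := by
  rw [← t_conj, ← t_conj]
  exact conj_comm_iff

theorem φ_inv_self (c : G0) (p : Fin NN) : φ c (φ c⁻¹ p) = p := by
  rw [← Equiv.Perm.mul_apply, ← map_mul, mul_inv_cancel, map_one]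
  rfl

theorem cl_congr {c : G0} (hc : c ∈ C0) {p q : Fin NN} (hp : AA p) (hq : AA q) (h : cl p = cl q) :
    cl (φ c p) = cl (φ c q) := by
  apply sep (AA_conj hc hp) (AA_conj hc hq)
  intro r hr
  have hr' : AA (φ c⁻¹ r) := AA_conj (inv_mem hc) hr
  have e := φ_inv_self c r
  rw [← e, comm_φ, comm_φ]
  exact comm_of_cl hp hq hr' h

/-! ### The action on the transvections -/

/-- A label of a transvection. -/
noncomputable def rp (y : ↥U4.D4) : Fin NN := (cl_surj y.2).choose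

theorem rp_AA (y : ↥U4.D4) : AA (rp y) := (cl_surj y.2).choose_spec.1

theorem cl_rp (y : ↥U4.D4) : cl (rp y) = y := (cl_surj y.2).choose_spec.2

/-- The action on the transvections. -/
noncomputable def Phi (c : ↥C0) (y : ↥U4.D4) : ↥U4.D4 := ⟨cl (φ c.1 (rp y)), cl_mem (AA_conj c.2 (rp_AA y))⟩

theorem Phi_val (c : ↥C0) {p : Fin NN} (hp : AA p) {y : ↥U4.D4} (hy : y.1 = cl p) : (Phi c y).1 = cl (φ c.1 p) :=
  cl_congr c.2 (rp_AA y) hp ((cl_rp y).trans hy)

theorem Phi_one (y : ↥U4.D4) : Phi 1 y = y := by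
  apply Subtype.ext
  show cl (φ 1 (rp y)) = y
  rw [map_one]
  exact cl_rp y

theorem Phi_mul (a b : ↥C0) (y : ↥U4.D4) : Phi (a * b) y = Phi a (Phi b y) := by
  apply Subtype.ext
  rw [Phi_val a (AA_conj b.2 (rp_AA y)) (y := Phi b y) rfl]
  show cl (φ (a.1 * b.1) (rp y)) = _
  rw [map_mul]
  rfl

/-- The action as a permutation. -/
noncomputable def PhiP : ↥C0 →* Equiv.Perm ↥U4.D4 where
  toFun c := ⟨Phi c, Phi c⁻¹, fun y => by rw [← Phi_mul, inv_mul_cancel, Phi_one], fun y => by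
    rw [← Phi_mul, mul_inv_cancel, Phi_one]⟩
  map_one' := by
    ext y
    show (Phi 1 y).1 = y.1
    rw [Phi_one]
  map_mul' a b := by
    ext y
    show (Phi (a * b) y).1 = (Phi a (Phi b y)).1
    rw [Phi_mul]

theorem PhiP_val (c : ↥C0) {p : Fin NN} (hp : AA p) {y : ↥U4.D4} (hy : y.1 = cl p) : (PhiP c y).1 = cl (φ c.1 p) :=
  Phi_val c hp hy

theorem t_mem_C0 {p : Fin NN} (h : AA p) : t p ∈ C0 := K0_le_C0 (t_AA_mem h)

theorem φ_conj_apply (c : G0) (p q : Fin NN) : φ c (φ (t p) q) = φ (t (φ c p)) (φ c q) := by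
  rw [← t_conj, ← Equiv.Perm.mul_apply, ← Equiv.Perm.mul_apply, ← map_mul, ← map_mul]
  congr 2
  group

theorem Phi_tp (c : ↥C0) (y z : ↥U4.D4) : PhiP c (Cfsg.Agent.Lib.Fischer.M22.Compare.tpD U4.tt4 y z) =
    Cfsg.Agent.Lib.Fischer.M22.Compare.tpD U4.tt4 (PhiP c y) (PhiP c z) := by
  apply Subtype.ext
  have hp := rp_AA y
  have hq := rp_AA z
  have hAA : AA (φ (t (rp y)) (rp z)) := AA_conj (t_mem_C0 hp) hq
  have e0 : (Cfsg.Agent.Lib.Fischer.M22.Compare.tpD U4.tt4 y z).1 = cl (φ (t (rp y)) (rp z)) := by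
    rw [cl_tp hp hq, cl_rp, cl_rp]
    rfl
  rw [PhiP_val c hAA e0, φ_conj_apply, cl_tp (AA_conj c.2 hp) (AA_conj c.2 hq)]
  show _ = (PhiP c y).1 * (PhiP c z).1 * (PhiP c y).1
  rw [PhiP_val c hp (cl_rp y).symm, PhiP_val c hq (cl_rp z).symm]

theorem exists_aut (c : ↥C0) : ∃ e : U4.PS ≃* U4.PS, ∀ y : ↥U4.D4, e y.1 = (PhiP c y).1 :=
  Cfsg.Agent.Lib.Fischer.M22.Compare.iso_of_equiv U4.tt4 U4.tt4 U4.closure4 U4.closure4 U4.center4 U4.center4 (PhiP c)
    (Phi_tp c)

/-- The automorphism induced by an element of the centralizer. -/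
noncomputable def autE (c : ↥C0) : MulAut U4.PS := (exists_aut c).choose

theorem autE_val (c : ↥C0) (y : ↥U4.D4) : autE c y.1 = (PhiP c y).1 := (exists_aut c).choose_spec y

theorem ext_D4 {e e' : U4.PS ≃* U4.PS} (h : ∀ y ∈ U4.D4, e y = e' y) : e = e' := by
  apply MulEquiv.ext
  intro x
  have hx : x ∈ Subgroup.closure U4.D4 := by rw [U4.closure4]; trivial
  induction hx using Subgroup.closure_induction with
  | mem y hy => exact h y hy
  | one => simp
  | mul a b _ _ ha hb => rw [map_mul, map_mul, ha, hb]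
  | inv a _ ha => rw [map_inv, map_inv, ha]

/-- The homomorphism to the automorphism group of `PSU₄(2)`. -/
noncomputable def autC : ↥C0 →* MulAut U4.PS :=
  MonoidHom.mk' autE fun a b => ext_D4 fun y hy => by
    have h1 := autE_val (a * b) ⟨y, hy⟩
    rw [map_mul] at h1
    rw [show autE (a * b) y = _ from h1]
    show _ = autE a (autE b y)
    rw [show autE b y = _ from autE_val b ⟨y, hy⟩, autE_val a]
    rfl

theorem autC_cl (c : ↥C0) {p : Fin NN} (hp : AA p) : autC c (cl p) = cl (φ c.1 p) := by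
  show autE c (cl p) = _
  rw [show autE c (cl p) = _ from autE_val c ⟨cl p, cl_mem hp⟩]
  exact PhiP_val c hp rfl

theorem autC_t {p : Fin NN} (hp : AA p) : autC ⟨t p, t_mem_C0 hp⟩ = MulAut.conj (cl p) := by
  apply ext_D4
  intro y hy
  obtain ⟨q, hq, rfl⟩ := cl_surj hy
  rw [autC_cl _ hq]
  show cl (φ (t p) q) = MulAut.conj (cl p) (cl q)
  rw [cl_tp hp hq, MulAut.conj_apply, show (cl p)⁻¹ = cl p from U4.T_inv (iso_w (AA_PP hp)).2]

end Cfsg.Agent.Lib.Fischer.M22.Pair
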