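/-
The centralizer of a product of two commuting transpositions of `G0` induces the full automorphism group on `PSU₄(2)`.
-/
import Mathlib
import Cfsg.Agent.Lib.Fischer.M22.Pair.Act

set_option autoImplicit false
set_option linter.unusedSectionVars false
set_option linter.unusedSimpArgs false
set_option linter.unusedVariables false
set_option maxRecDepth 100000

namespace Cfsg.Agent.Lib.Fischer.M22.Pair

open Cfsg Cfsg.Agent.Lib.Compute.GF4 Cfsg.Agent.Lib.Fischer.Basic Cfsg.Agent.Lib.Fischer.Local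
open Cfsg.Agent.Lib.Compute.ToddCoxeterCore
open Cfsg.Agent.Lib.Compute.ToddCoxeterPresented hiding TT
open Cfsg.Agent.Lib.Compute.TCFast Cfsg.Agent.Lib.Compute.TCChain
open Cfsg.Agent.Lib.Compute.TC
open Cfsg.Agent.Lib.Fischer.M22.Model Cfsg.Agent.Lib.Fischer.M22.Bridge
open Cfsg.Agent.Lib.Fischer.M22.Explicit

/-! ### The inner automorphisms -/

theorem conj_mem_range (x : U4.PS) : MulAut.conj x ∈ autC.range := by
  have hx : x ∈ Subgroup.closure U4.D4 := by rw [U4.closure4]; trivial
  induction hx using Subgroup.closure_induction with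
  | mem y hy =>
    obtain ⟨p, hp, rfl⟩ := cl_surj hy
    exact ⟨⟨t p, t_mem_C0 hp⟩, autC_t hp⟩
  | one =>
    rw [map_one]
    exact one_mem _
  | mul a b _ _ ha hb =>
    rw [map_mul]
    exact mul_mem ha hb
  | inv a _ ha =>
    rw [map_inv]
    exact inv_mem ha

/-! ### The element swapping the two transpositions -/

/-- A word swapping `a0` and `t₆`. -/
def sE : PE := wa [1, 0, 2, 1]

/-- The element swapping `a0` and `t₆`. -/
noncomputable def s0 : G0 := sE.el L

theorem s0_0 : φ s0 pt0 = lb6 := by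
  apply Fin.ext
  rw [s0, pe_val]
  decide +kernel

theorem s0_6 : φ s0 lb6 = pt0 := by
  apply Fin.ext
  rw [s0, pe_val]
  decide +kernel

theorem s0_conj_a : s0 * a0 * s0⁻¹ = t lb6 := by
  rw [← t_pt0, t_conj, s0_0]

theorem s0_conj_b : s0 * t lb6 * s0⁻¹ = a0 := by
  rw [t_conj, s0_6, t_pt0]

theorem s0_mem : s0 ∈ C0 := by
  refine mem_C0.2 ?_
  show s0 * (a0 * t lb6) = a0 * t lb6 * s0
  have e : s0 * (a0 * t lb6) * s0⁻¹ = a0 * t lb6 := by
    calc s0 * (a0 * t lb6) * s0⁻¹ = (s0 * a0 * s0⁻¹) * (s0 * t lb6 * s0⁻¹) := by group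
      _ = a0 * t lb6 := by rw [s0_conj_a, s0_conj_b]; exact comm_a0_b0.symm.eq
  calc s0 * (a0 * t lb6) = s0 * (a0 * t lb6) * s0⁻¹ * s0 := by group
    _ = a0 * t lb6 * s0 := by rw [e]

/-- The permutation induced on the classes. -/
def pf : Fin 45 → Fin 45 := ![0, 1, 2, 22, 21, 10, 9, 34, 33, 6, 5, 11, 27, 43, 14, 15, 31, 38, 39, 19, 26, 4, 3, 23, 24, 40, 20, 12, 28, 44, 36, 16, 32, 8, 7, 35, 30, 37, 17, 18, 25, 41, 42, 13, 29]

/-- The permutation induced on the classes. -/
def σ45 : Equiv.Perm (Fin 45) := ⟨pf, pf, by decide +kernel, by decide +kernel⟩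

theorem sign_σ45 : Equiv.Perm.sign σ45 = -1 := by decide +kernel

theorem Reps_length : Reps.length = 45 := by decide

/-- The representative of a class. -/
def rc (i : Fin 45) : ℕ := Reps.get (i.cast Reps_length.symm)

theorem rc_mem (i : Fin 45) : rc i ∈ Reps := List.get_mem _ _

theorem rc_PP (i : Fin 45) : PP (rc i) := PP_of_chk (List.all_eq_true.1 reps_PP _ (rc_mem i))

theorem rc_inj : Function.Injective rc := by
  intro i j h
  have hnd : Reps.Nodup := by decide +kernel
  have := List.nodup_iff_injective_get.1 hnd h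
  simpa using this

/-- The element of `D4` of a class. -/
noncomputable def ee (i : Fin 45) : ↥U4.D4 := ⟨U4.T (w (rc i)), U4.T_mem (iso_w (rc_PP i))⟩

theorem sig_of_T {c c' : ℕ} (hc : PP c) (hc' : PP c') (h : U4.T (w c) = U4.T (w c')) : sig c = sig c' := by
  apply List.map_congr_left
  intro r hr
  have hr' := PP_of_chk (List.all_eq_true.1 W_PP r hr)
  apply Bool.eq_iff_iff.2
  rw [← T_w_comm hc hr', ← T_w_comm hc' hr', h]

theorem ee_inj : Function.Injective ee := by
  intro i j h
  have h1 : U4.T (w (rc i)) = U4.T (w (rc j)) := congrArg Subtype.val h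
  have h2 := sig_of_T (rc_PP i) (rc_PP j) h1
  have h3 := List.all_eq_true.1 (List.all_eq_true.1 reps_inj _ (rc_mem i)) _ (rc_mem j)
  simp only [Bool.or_eq_true, bne_iff_ne, ne_eq, Nat.beq_eq] at h3
  rcases h3 with h3 | h3
  · exact absurd h2 h3
  · exact rc_inj h3

theorem ee_surj : Function.Surjective ee := by
  rintro ⟨y, hy⟩
  obtain ⟨p, hp, rfl⟩ := cl_surj hy
  obtain ⟨r, hr, h1⟩ := List.any_eq_true.1 (List.all_eq_true.1 sep_chk (code p) (mem_L180 (AA_PP hp)))
  simp only [Bool.and_eq_true, beq_iff_eq] at h1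
  obtain ⟨i, hi⟩ := List.mem_iff_get.1 hr
  refine ⟨i.cast Reps_length, Subtype.ext ?_⟩
  show U4.T (w (Reps.get ((i.cast Reps_length).cast Reps_length.symm))) = U4.T (w (code p))
  have e : (i.cast Reps_length).cast Reps_length.symm = i := by
    apply Fin.ext
    rfl
  rw [e, hi, T_same (PP_of_chk (List.all_eq_true.1 reps_PP r hr)) h1.2]

/-- The action of the swap on the classes: the check on labels. -/
noncomputable def chkS0 : Bool :=
  (List.finRange 45).all fun i => same (rc (pf i)) (code (sE.ev ev true (lbl (rc i))))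

theorem chkS0_ok : chkS0 = true := by decide +kernel

theorem PhiP_s0 (i : Fin 45) : PhiP ⟨s0, s0_mem⟩ (ee i) = ee (σ45 i) := by
  obtain ⟨p, hp, hc⟩ := exists_label (rc_PP i)
  have hl : (p : ℕ) = lbl (rc i) := by
    have h1 := lbl_code p.2 hp.1
    rw [hc] at h1
    exact h1.symm
  apply Subtype.ext
  have h1 : (ee i).1 = cl p := by
    show U4.T (w (rc i)) = U4.T (w (code p))
    rw [hc]
  rw [PhiP_val _ hp h1]
  have h2 := List.all_eq_true.1 chkS0_ok i (List.mem_finRange i)
  rw [← hl, ← show ((φ s0 p : Fin NN) : ℕ) = sE.ev ev true p from pe_val sE p] at h2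
  exact T_same (rc_PP _) h2

noncomputable instance fintypeD4 : Fintype ↥U4.D4 := Fintype.ofFinite _

noncomputable instance decEqD4 : DecidableEq ↥U4.D4 := Classical.decEq _

theorem sign_s0 : Equiv.Perm.sign (PhiP ⟨s0, s0_mem⟩) = -1 := by
  let e : Fin 45 ≃ ↥U4.D4 := Equiv.ofBijective ee ⟨ee_inj, ee_surj⟩
  have h : (e.trans (PhiP ⟨s0, s0_mem⟩)).trans e.symm = σ45 := by
    ext i
    show ((e.symm (PhiP ⟨s0, s0_mem⟩ (ee i))) : Fin 45).1 = _
    rw [PhiP_s0]
    congr 1
    exact e.symm_apply_apply _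
  rw [← Equiv.Perm.sign_trans_trans_symm (PhiP ⟨s0, s0_mem⟩) e, h, sign_σ45]

/-- Inner automorphisms are even on the transvections. -/
theorem sign_conj (x : U4.PS) :
    Equiv.Perm.sign (Cfsg.Agent.Lib.Fischer.M22.Compare.conjPerm U4.tt4 U4.closure4 x) = 1 := by
  have h3 : x ∈ commutator U4.PS := by rw [U4.commutator4]; trivial
  have h4 := Abelianization.commutator_subset_ker
    ((Equiv.Perm.sign).comp (Cfsg.Agent.Lib.Fischer.M22.Compare.conjPerm U4.tt4 U4.closure4)) h3
  rwa [MonoidHom.mem_ker] at h4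

theorem s0_not_inner (x : U4.PS) : autC ⟨s0, s0_mem⟩ ≠ MulAut.conj x := by
  intro h
  have h1 : PhiP ⟨s0, s0_mem⟩ = Cfsg.Agent.Lib.Fischer.M22.Compare.conjPerm U4.tt4 U4.closure4 x := by
    ext y
    have h2 : autE ⟨s0, s0_mem⟩ y.1 = (PhiP ⟨s0, s0_mem⟩ y).1 := autE_val _ y
    rw [← h2]
    show autC ⟨s0, s0_mem⟩ y.1 = _
    rw [h]
    rfl
  have h2 := sign_s0
  have h3 := sign_conj x
  rw [h1] at h2
  rw [h2] at h3
  exact absurd h3 (by decide)

/-! ### Surjectivity -/

/-- The inner automorphisms. -/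
noncomputable def Inn4 : Subgroup (MulAut U4.PS) := (MulAut.conj (G := U4.PS)).range

theorem card_Inn4 : Nat.card Inn4 = 25920 := by
  have hinj : Function.Injective (MulAut.conj (G := U4.PS)) := by
    rw [injective_iff_map_eq_one]
    intro x hx
    have hc : x ∈ Subgroup.center U4.PS := by
      rw [Subgroup.mem_center_iff]
      intro y
      have h1 := congrArg (fun f : MulAut U4.PS => f y) hx
      simp only [MulAut.conj_apply, MulAut.one_apply] at h1
      calc y * x = x * y * x⁻¹ * x := by rw [h1]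
        _ = x * y := by group
    rw [U4.center4, Subgroup.mem_bot] at hc
    exact hc
  rw [Inn4, ← U4.card4]
  exact Nat.card_congr (MonoidHom.ofInjective hinj).toEquiv.symm

theorem autC_surj : Function.Surjective autC := by
  rw [← MonoidHom.range_eq_top]
  have hle : Inn4 ≤ autC.range := by
    rintro _ ⟨x, rfl⟩
    exact conj_mem_range x
  have h1 : Nat.card Inn4 ∣ Nat.card autC.range := Subgroup.card_dvd_of_le hle
  have h2 : Nat.card autC.range ∣ Nat.card (MulAut U4.PS) := Subgroup.card_subgroup_dvd_card _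
  rw [card_Inn4] at h1
  rw [U4.card_aut4] at h2
  obtain ⟨k, hk⟩ := h1
  have hk0 : k ∣ 2 := by
    rw [hk, show (51840 : ℕ) = 25920 * 2 from rfl] at h2
    exact (Nat.mul_dvd_mul_iff_left (by norm_num)).1 h2
  have hk1 : k = 1 ∨ k = 2 := (Nat.dvd_prime Nat.prime_two).1 hk0
  rcases hk1 with rfl | rfl
  · exfalso
    have e : Inn4 = autC.range := Subgroup.eq_of_le_of_card_ge hle (by rw [card_Inn4, hk])
    have hs : autC ⟨s0, s0_mem⟩ ∈ Inn4 := by
      rw [e]
      exact ⟨_, rfl⟩
    obtain ⟨x, hx⟩ := hs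
    exact s0_not_inner x hx.symm
  · apply Subgroup.eq_top_of_card_eq
    rw [hk, U4.card_aut4]

end Cfsg.Agent.Lib.Fischer.M22.Pair
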