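/-
The kernel of the action of the centralizer of a product of two commuting transpositions of `G0` on `PSU₄(2)`.
-/
import Mathlib
import Cfsg.Agent.Lib.Fischer.Gen.Chain
import Cfsg.Agent.Lib.Fischer.M22.Rows.Core
import Cfsg.Agent.Lib.Fischer.M22.ExplicitPSU
import Cfsg.Agent.Lib.Fischer.M22.ExplicitCent
import Cfsg.Agent.Lib.Fischer.M22.Pair.Outer

set_option autoImplicit false
set_option linter.unusedSectionVars false
set_option linter.unusedSimpArgs false
set_option linter.unusedVariables false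
set_option maxRecDepth 100000

namespace Cfsg.Agent.Lib.Fischer.M22.Pair

open Cfsg Cfsg.Agent.Lib.Compute.GF4 Cfsg.Agent.Lib.Fischer.Basic Cfsg.Agent.Lib.Fischer.Local
open Cfsg.Agent.Lib.Fischer.M22.Model Cfsg.Agent.Lib.Fischer.M22.Bridge
open Cfsg.Agent.Lib.Fischer.M22.Explicit
open Cfsg.Agent.Lib.Fischer.Gen.Chain
open Cfsg.Agent.Lib.Fischer.M22.Rows (tv tv_spec)

/-! ### Orders -/

theorem K0_eq_K2 : K0 = K2 := by
  ext c
  rw [mem_K0, K2, Subgroup.mem_inf, mem_H0_iff, mem_stabS, ← comm_t_iff', ← comm_t_iff', t_pt0]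

theorem card_K0 : Nat.card K0 = 26542080 := by
  have h1 := card_H0_K2
  rw [card_H0, ← K0_eq_K2] at h1
  omega

theorem index_K0 : (K0.subgroupOf C0).index = 2 := by
  have hn : a0 ≠ t lb6 := by
    intro e
    rw [← t_pt0] at e
    have := congrArg Fin.val (t_inj e)
    exact absurd this (by decide)
  rw [Subgroup.index_eq_two_iff]
  refine ⟨⟨s0, s0_mem⟩, fun b => ?_⟩
  rw [Subgroup.mem_subgroupOf, Subgroup.mem_subgroupOf]
  show Xor' ((b.1 * s0) ∈ K0) (b.1 ∈ K0)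
  have conj_of : ∀ {c : G0}, c ∈ K0 → c * a0 * c⁻¹ = a0 ∧ c * t lb6 * c⁻¹ = t lb6 := by
    intro c hc
    obtain ⟨h1, h2⟩ := mem_K0.1 hc
    exact ⟨by rw [h1.eq]; group, by rw [h2.eq]; group⟩
  have of_conj : ∀ {c : G0}, c * a0 * c⁻¹ = a0 → c * t lb6 * c⁻¹ = t lb6 → c ∈ K0 := by
    intro c h1 h2
    refine mem_K0.2 ⟨?_, ?_⟩
    · show c * a0 = a0 * c
      calc c * a0 = c * a0 * c⁻¹ * c := by group
        _ = a0 * c := by rw [h1]
    · show c * t lb6 = t lb6 * c
      calc c * t lb6 = c * t lb6 * c⁻¹ * c := by group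
        _ = t lb6 * c := by rw [h2]
  have e1 : ∀ {x : G0}, b.1 * s0 * x * (b.1 * s0)⁻¹ = b.1 * (s0 * x * s0⁻¹) * b.1⁻¹ := fun {x} => by group
  rcases C_dich b.2 with ⟨h1, h2⟩ | ⟨h1, h2⟩
  · right
    refine ⟨of_conj h1 h2, fun k => ?_⟩
    have k1 := (conj_of k).1
    rw [e1, s0_conj_a, h2] at k1
    exact hn k1.symm
  · left
    refine ⟨of_conj ?_ ?_, fun k => ?_⟩
    · rw [e1, s0_conj_a, h2]
    · rw [e1, s0_conj_b, h1]
    · have k1 := (conj_of k).1
      rw [h1] at k1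
      exact hn k1.symm

theorem card_C0 : Nat.card C0 = 53084160 := by
  have h1 := Subgroup.card_mul_index (K0.subgroupOf C0)
  rw [index_K0, Nat.card_congr (Subgroup.subgroupOfEquivOfLe K0_le_C0).toEquiv, card_K0] at h1
  omega

theorem card_ker : Nat.card autC.ker = 1024 := by
  have h1 := Subgroup.card_mul_index autC.ker
  rw [Subgroup.index_ker, MonoidHom.range_eq_top.2 autC_surj, Subgroup.card_top, U4.card_aut4, card_C0] at h1
  exact Nat.eq_of_mul_eq_mul_right (by norm_num : 0 < 51840) (h1.trans (by norm_num : 53084160 = 1024 * 51840))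

/-! ### The kernel in `G0` -/

/-- The kernel. -/
noncomputable def EE : Subgroup G0 := autC.ker.map C0.subtype

theorem mem_EE {x : G0} : x ∈ EE ↔ ∃ h : x ∈ C0, autC ⟨x, h⟩ = 1 := by
  constructor
  · rintro ⟨y, hy, rfl⟩
    exact ⟨y.2, hy⟩
  · rintro ⟨h, e⟩
    exact ⟨⟨x, h⟩, e, rfl⟩

theorem EE_le_C0 : EE ≤ C0 := fun x hx => (mem_EE.1 hx).1

theorem card_EE : Nat.card EE = 1024 := by
  rw [EE, Subgroup.card_map_of_injective C0.subtype_injective, card_ker]

theorem EE_conj {c x : G0} (hc : c ∈ C0) (hx : x ∈ EE) : c * x * c⁻¹ ∈ EE := by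
  obtain ⟨h, e⟩ := mem_EE.1 hx
  refine mem_EE.2 ⟨mul_mem (mul_mem hc h) (inv_mem hc), ?_⟩
  have e1 : (⟨c * x * c⁻¹, mul_mem (mul_mem hc h) (inv_mem hc)⟩ : ↥C0) = ⟨c, hc⟩ * ⟨x, h⟩ * (⟨c, hc⟩ : ↥C0)⁻¹ := rfl
  rw [e1, map_mul, map_mul, e, mul_one, map_inv, mul_inv_cancel]

theorem autC_eq_one_of_fix {c : ↥C0} (h : ∀ p, AA p → φ c.1 p = p) : autC c = 1 := by
  apply ext_D4
  intro y hy
  obtain ⟨p, hp, rfl⟩ := cl_surj hy
  rw [autC_cl c hp, h p hp]
  rfl

theorem t_mem_EE_of_comm {d : G0} (hd : d ∈ C0) (h : ∀ p, AA p → Commute d (t p)) : d ∈ EE :=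
  mem_EE.2 ⟨hd, autC_eq_one_of_fix fun p hp => (comm_t_iff' _ _).1 (h p hp)⟩

theorem a0_mem_C0 : a0 ∈ C0 := mem_C0.2 ((Commute.refl a0).mul_right comm_a0_b0)

theorem b0_mem_C0 : t lb6 ∈ C0 := mem_C0.2 (comm_a0_b0.symm.mul_right (Commute.refl _))

theorem a0_mem_K0 : a0 ∈ K0 := mem_K0.2 ⟨Commute.refl _, comm_a0_b0⟩

theorem b0_mem_K0 : t lb6 ∈ K0 := mem_K0.2 ⟨comm_a0_b0.symm, Commute.refl _⟩

theorem a0_mem_EE : a0 ∈ EE := t_mem_EE_of_comm a0_mem_C0 fun p hp => ((AA_iff p).1 hp).2.2.1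

theorem b0_mem_EE : t lb6 ∈ EE := t_mem_EE_of_comm b0_mem_C0 fun p hp => ((AA_iff p).1 hp).2.2.2

/-- The product of the transpositions of a pair with the same transvection lies in the kernel. -/
theorem twin_mem {p q : Fin NN} (hp : AA p) (hq : AA q) (h : cl p = cl q) : t p * t q ∈ EE := by
  refine mem_EE.2 ⟨mul_mem (t_mem_C0 hp) (t_mem_C0 hq), ?_⟩
  have e : (⟨t p * t q, mul_mem (t_mem_C0 hp) (t_mem_C0 hq)⟩ : ↥C0) = ⟨t p, t_mem_C0 hp⟩ * ⟨t q, t_mem_C0 hq⟩ := rfl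
  rw [e, map_mul, autC_t hp, autC_t hq, ← map_mul, ← h, show cl p * cl p = 1 from U4.T_sq (iso_w (AA_PP hp)).2, map_one]

/-! ### The subgroup `V` -/

/-- The subgroup generated by the two transpositions. -/
def V0 : Subgroup G0 := Subgroup.closure ({a0, t lb6} : Set G0)

theorem a0_sq : a0 * a0 = 1 := by
  rw [← t_pt0]
  exact t_sq _

theorem b0_sq : t lb6 * t lb6 = 1 := t_sq _

theorem mem_V0 {y : G0} : y ∈ V0 ↔ y = 1 ∨ y = a0 ∨ y = t lb6 ∨ y = a0 * t lb6 := by
  have hzz := a0_sq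
  have hLL := b0_sq
  have hc := comm_a0_b0
  constructor
  · intro h
    induction h using Subgroup.closure_induction with
    | mem x hx =>
      rcases hx with rfl | hx
      · simp
      · rw [Set.mem_singleton_iff.1 hx]
        simp
    | one => simp
    | mul x y _ _ hx hy =>
      have e1 : a0 * (a0 * t lb6) = t lb6 := by rw [← mul_assoc, hzz, one_mul]
      have e2 : t lb6 * a0 = a0 * t lb6 := hc.symm.eq
      have e3 : t lb6 * (a0 * t lb6) = a0 := by rw [← mul_assoc, e2, mul_assoc, hLL, mul_one]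
      have e4 : a0 * t lb6 * a0 = t lb6 := by rw [mul_assoc, e2, ← mul_assoc, hzz, one_mul]
      have e5 : a0 * t lb6 * t lb6 = a0 := by rw [mul_assoc, hLL, mul_one]
      have e6 : a0 * t lb6 * (a0 * t lb6) = 1 := by rw [← mul_assoc, e4, hLL]
      rcases hx with rfl | rfl | rfl | rfl <;> rcases hy with rfl | rfl | rfl | rfl <;>
        simp only [one_mul, mul_one, hzz, hLL, e1, e2, e3, e4, e5, e6, true_or, or_true]
    | inv x _ hx =>
      have e1 : a0⁻¹ = a0 := inv_eq_of_mul_eq_one_left hzz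
      have e2 : (t lb6)⁻¹ = t lb6 := inv_eq_of_mul_eq_one_left hLL
      have e3 : (a0 * t lb6)⁻¹ = a0 * t lb6 := by
        rw [mul_inv_rev, e1, e2]
        exact hc.symm.eq
      rcases hx with rfl | rfl | rfl | rfl
      · simp
      · simp [e1]
      · simp [e2]
      · simp [e3]
  · have h1 : a0 ∈ V0 := Subgroup.subset_closure (by simp)
    have h2 : t lb6 ∈ V0 := Subgroup.subset_closure (by simp)
    rintro (rfl | rfl | rfl | rfl)
    · exact one_mem _
    · exact h1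
    · exact h2
    · exact mul_mem h1 h2

theorem V0_le_EE : V0 ≤ EE := by
  rw [V0, Subgroup.closure_le]
  rintro x (rfl | hx)
  · exact a0_mem_EE
  · rw [Set.mem_singleton_iff.1 hx]
    exact b0_mem_EE

theorem V0_le_K0 : V0 ≤ K0 := by
  rw [V0, Subgroup.closure_le]
  rintro x (rfl | hx)
  · exact a0_mem_K0
  · rw [Set.mem_singleton_iff.1 hx]
    exact b0_mem_K0

theorem V0_central {v x : G0} (hv : v ∈ V0) (hx : x ∈ K0) : Commute v x := by
  obtain ⟨h1, h2⟩ := mem_K0.1 hx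
  rcases mem_V0.1 hv with rfl | rfl | rfl | rfl
  · exact Commute.one_left _
  · exact h1.symm
  · exact h2.symm
  · exact (h1.symm).mul_left h2.symm

theorem card_V0 : 4 ≤ Nat.card V0 := by
  classical
  have hne : a0 ≠ t lb6 := by
    intro e
    rw [← t_pt0] at e
    have := congrArg Fin.val (t_inj e)
    exact absurd this (by decide)
  have ha : a0 ≠ 1 := tt0.ne_one _ a0_mem
  have hb : t lb6 ≠ 1 := tt0.ne_one _ (t_mem _)
  have hab : a0 * t lb6 ≠ 1 := by
    intro e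
    apply hne
    calc a0 = a0 * (t lb6 * t lb6) := by rw [b0_sq, mul_one]
      _ = t lb6 := by rw [← mul_assoc, e, one_mul]
  have ha' : a0 * t lb6 ≠ a0 := by simpa using hb
  have hb' : a0 * t lb6 ≠ t lb6 := by simpa using ha
  let f : Fin 4 → V0 := ![1, ⟨a0, mem_V0.2 (by simp)⟩, ⟨t lb6, mem_V0.2 (by simp)⟩, ⟨a0 * t lb6, mem_V0.2 (by simp)⟩]
  have hf : Function.Injective f := by
    intro i j h
    have h' : (f i).1 = (f j).1 := congrArg Subtype.val h
    fin_cases i <;> fin_cases j <;> first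
      | rfl
      | (exfalso; simp [f] at h'; first | exact ha h' | exact ha h'.symm | exact hb h' | exact hb h'.symm | exact hne h' | exact hne h'.symm | exact hab h' | exact hab h'.symm | exact ha' h' | exact ha' h'.symm | exact hb' h' | exact hb' h'.symm)
  have := Nat.card_le_card_of_injective f hf
  rwa [Nat.card_eq_fintype_card, Fintype.card_fin] at this

/-! ### Generators -/

/-- A label from a number. -/
def lab (n : ℕ) : Fin NN := ⟨n % 3510, Nat.mod_lt _ (by decide)⟩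

theorem lab_val {n : ℕ} (h : n < 3510) : ((lab n : Fin NN) : ℕ) = n := Nat.mod_eq_of_lt h

/-- The pairs of labels with the same transvection. -/
def pairs : List (ℕ × ℕ) :=
  [(88, 89), (88, 3103), (88, 3217), (392, 542), (392, 1525), (392, 2364), (40, 154), (40, 3399), (40, 3400),
    (43, 424), (43, 434), (43, 637)]

/-- The check of a label. -/
noncomputable def chkA (n : ℕ) : Bool := Nat.blt n 3510 && Nat.beq (oid n) 2 && perp 5 (code n) && !Nat.beq (code n) 5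

theorem AA_lab {n : ℕ} (h : chkA n = true) : AA (lab n) ∧ n < 3510 := by
  simp only [chkA, Bool.and_eq_true, Bool.not_eq_true'] at h
  obtain ⟨⟨⟨h1, h2⟩, h3⟩, h4⟩ := h
  have h5 : n < 3510 := (Cfsg.Agent.Lib.Fischer.M22.Fast.blt_iff _ _).1 h1
  refine ⟨?_, h5⟩
  unfold AA
  rw [lab_val h5]
  exact ⟨Nat.eq_of_beq_eq_true h2, h3, Nat.ne_of_beq_eq_false h4⟩

theorem pairs_chk : pairs.all (fun x => chkA x.1 && chkA x.2 && same (code x.1) (code x.2)) = true := by decide +kernel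

theorem pairs_spec {x : ℕ × ℕ} (hx : x ∈ pairs) : AA (lab x.1) ∧ AA (lab x.2) ∧ x.1 < 3510 ∧ x.2 < 3510 ∧ cl (lab x.1) = cl (lab x.2) := by
  have h := List.all_eq_true.1 pairs_chk x hx
  simp only [Bool.and_eq_true] at h
  obtain ⟨⟨h1, h2⟩, h3⟩ := h
  obtain ⟨a1, a2⟩ := AA_lab h1
  obtain ⟨b1, b2⟩ := AA_lab h2
  refine ⟨a1, b1, a2, b2, ?_⟩
  unfold cl
  rw [lab_val a2, lab_val b2]
  have h0 : PP (code x.1) := by
    have := AA_PP a1
    rwa [lab_val a2] at this
  exact (T_same h0 h3).symm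

/-- The product of the transpositions of a pair. -/
noncomputable def gg (x : ℕ × ℕ) : G0 := t (lab x.1) * t (lab x.2)

/-- The action of the product on labels. -/
noncomputable def gv (x : ℕ × ℕ) (r : ℕ) : ℕ := tv x.1 (tv x.2 r)

theorem t_val {q : ℕ} (hq : q < 3510) (p : Fin NN) : ((φ (t (lab q)) p : Fin NN) : ℕ) = tv q p := by
  rw [tv_spec, lab_val hq]

theorem gg_val {x : ℕ × ℕ} (h1 : x.1 < 3510) (h2 : x.2 < 3510) (p : Fin NN) : ((φ (gg x) p : Fin NN) : ℕ) = gv x p := by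
  unfold gg gv
  rw [map_mul, Equiv.Perm.coe_mul, Function.comp_apply, t_val h1, t_val h2]

theorem gg_inv {x : ℕ × ℕ} : (gg x)⁻¹ = gg x.swap := by
  unfold gg
  rw [mul_inv_rev, inv_eq_of_mul_eq_one_left (t_sq _), inv_eq_of_mul_eq_one_left (t_sq _)]
  rfl

theorem gg_comm {x : ℕ × ℕ} (hx : x ∈ pairs) : gg x * gg x = 1 := by
  obtain ⟨a1, a2, -, -, e⟩ := pairs_spec hx
  have hc : Commute (t (lab x.1)) (t (lab x.2)) := by
    rw [← cl_comm a1 a2, ← e]
  unfold gg
  calc t (lab x.1) * t (lab x.2) * (t (lab x.1) * t (lab x.2)) = t (lab x.1) * (t (lab x.2) * t (lab x.1)) * t (lab x.2) := by group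
    _ = t (lab x.1) * (t (lab x.1) * t (lab x.2)) * t (lab x.2) := by rw [hc.symm.eq]
    _ = (t (lab x.1) * t (lab x.1)) * (t (lab x.2) * t (lab x.2)) := by group
    _ = 1 := by rw [t_sq, t_sq, one_mul]

theorem gg_mem_EE {x : ℕ × ℕ} (hx : x ∈ pairs) : gg x ∈ EE := by
  obtain ⟨a1, a2, -, -, e⟩ := pairs_spec hx
  exact twin_mem a1 a2 e

theorem gg_mem_K0 {x : ℕ × ℕ} (hx : x ∈ pairs) : gg x ∈ K0 := by
  obtain ⟨a1, a2, -, -, -⟩ := pairs_spec hx
  exact mul_mem (t_AA_mem a1) (t_AA_mem a2)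

/-- The generators of the kernel. -/
noncomputable def gensL : List G0 := a0 :: t lb6 :: pairs.map gg

/-- The subgroup generated. -/
noncomputable def E2 : Subgroup G0 := Subgroup.closure {g | g ∈ gensL}

theorem gens_cases {g : G0} (h : g ∈ gensL) : g = a0 ∨ g = t lb6 ∨ ∃ x ∈ pairs, g = gg x := by
  rcases List.mem_cons.1 h with h | h
  · exact Or.inl h
  · rcases List.mem_cons.1 h with h | h
    · exact Or.inr (Or.inl h)
    · obtain ⟨x, hx, e⟩ := List.mem_map.1 h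
      exact Or.inr (Or.inr ⟨x, hx, e.symm⟩)

theorem E2_le_EE : E2 ≤ EE := by
  rw [E2, Subgroup.closure_le]
  intro g hg
  rcases gens_cases hg with rfl | rfl | ⟨x, hx, rfl⟩
  · exact a0_mem_EE
  · exact b0_mem_EE
  · exact gg_mem_EE hx

theorem E2_le_K0 : E2 ≤ K0 := by
  rw [E2, Subgroup.closure_le]
  intro g hg
  rcases gens_cases hg with rfl | rfl | ⟨x, hx, rfl⟩
  · exact a0_mem_K0
  · exact b0_mem_K0
  · exact gg_mem_K0 hx

theorem V0_le_E2 : V0 ≤ E2 := by
  rw [V0, Subgroup.closure_le]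
  rintro x (rfl | hx)
  · exact Subgroup.subset_closure (List.mem_cons_self)
  · rw [Set.mem_singleton_iff.1 hx]
    exact Subgroup.subset_closure (List.mem_cons_of_mem _ List.mem_cons_self)

theorem gg_mem_E2 {x : ℕ × ℕ} (hx : x ∈ pairs) : gg x ∈ E2 :=
  Subgroup.subset_closure (List.mem_cons_of_mem _ (List.mem_cons_of_mem _ (List.mem_map_of_mem hx)))

/-- One level of the chain. -/
theorem level (l : List (Fin NN)) (b : Fin NN) (ps : List (ℕ × ℕ)) (hps : ∀ x ∈ ps, x ∈ pairs)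
    (hfix : ∀ x ∈ ps, ∀ r ∈ l, gv x r = r) (hnd : ((b : ℕ) :: ps.map (fun x => gv x b)).Nodup) :
    (∀ g ∈ (1 : G0) :: ps.map gg, g ∈ Pl φ E2 l) ∧ (((1 : G0) :: ps.map gg).map (fun g => φ g b)).Nodup := by
  constructor
  · intro g hg
    rcases List.mem_cons.1 hg with rfl | hg
    · exact one_mem _
    · obtain ⟨x, hx, rfl⟩ := List.mem_map.1 hg
      refine ⟨gg_mem_E2 (hps x hx), fun r hr => ?_⟩
      obtain ⟨-, -, h1, h2, -⟩ := pairs_spec (hps x hx)
      apply Fin.ext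
      rw [gg_val h1 h2]
      exact hfix x hx r hr
  · apply List.Nodup.of_map Fin.val
    rw [List.map_map]
    have e : (((1 : G0) :: ps.map gg).map (Fin.val ∘ fun g => φ g b)) = (b : ℕ) :: ps.map (fun x => gv x b) := by
      rw [List.map_cons, List.map_map]
      congr 1
      apply List.map_congr_left
      intro x hx
      obtain ⟨-, -, h1, h2, -⟩ := pairs_spec (hps x hx)
      exact gg_val h1 h2 b
    rw [e]
    exact hnd

/-- The four levels. -/
def lev1 : List (ℕ × ℕ) := [(88, 89), (88, 3103), (88, 3217)]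
/-- The four levels. -/
def lev2 : List (ℕ × ℕ) := [(392, 542), (392, 1525), (392, 2364)]
/-- The four levels. -/
def lev3 : List (ℕ × ℕ) := [(40, 154), (40, 3399), (40, 3400)]
/-- The four levels. -/
def lev4 : List (ℕ × ℕ) := [(43, 424), (43, 434), (43, 637)]

theorem lev_chk1 : ((40 : ℕ) :: lev1.map (fun x => gv x 40)).Nodup := by decide +kernel
theorem lev_chk2 : ((43 : ℕ) :: lev2.map (fun x => gv x 43)).Nodup ∧ lev2.all (fun x => Nat.beq (gv x 40) 40) = true := by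
  decide +kernel
theorem lev_chk3 : ((62 : ℕ) :: lev3.map (fun x => gv x 62)).Nodup ∧
    lev3.all (fun x => Nat.beq (gv x 40) 40 && Nat.beq (gv x 43) 43) = true := by
  decide +kernel
theorem lev_chk4 : ((66 : ℕ) :: lev4.map (fun x => gv x 66)).Nodup ∧
    lev4.all (fun x => Nat.beq (gv x 40) 40 && Nat.beq (gv x 43) 43 && Nat.beq (gv x 62) 62) = true := by
  decide +kernel

/-- The chain. -/
noncomputable def chain0 : List (Fin NN × List G0) :=
  [(lab 40, 1 :: lev1.map gg), (lab 43, 1 :: lev2.map gg), (lab 62, 1 :: lev3.map gg), (lab 66, 1 :: lev4.map gg)]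

theorem lab_40 : ((lab 40 : Fin NN) : ℕ) = 40 := rfl
theorem lab_43 : ((lab 43 : Fin NN) : ℕ) = 43 := rfl
theorem lab_62 : ((lab 62 : Fin NN) : ℕ) = 62 := rfl
theorem lab_66 : ((lab 66 : Fin NN) : ℕ) = 66 := rfl

theorem valid_chain : Valid φ E2 [] chain0 := by
  obtain ⟨h21, h22⟩ := lev_chk2
  obtain ⟨h31, h32⟩ := lev_chk3
  obtain ⟨h41, h42⟩ := lev_chk4
  obtain ⟨a1, a2⟩ := level [] (lab 40) lev1 (by decide) (by simp) lev_chk1
  obtain ⟨b1, b2⟩ := level [lab 40] (lab 43) lev2 (by decide) (by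
    intro x hx r hr
    rw [List.mem_singleton] at hr
    subst hr
    exact Nat.eq_of_beq_eq_true (List.all_eq_true.1 h22 x hx)) h21
  obtain ⟨c1, c2⟩ := level [lab 43, lab 40] (lab 62) lev3 (by decide) (by
    intro x hx r hr
    have h := List.all_eq_true.1 h32 x hx
    simp only [Bool.and_eq_true] at h
    simp only [List.mem_cons, List.not_mem_nil, or_false] at hr
    rcases hr with rfl | rfl
    · exact Nat.eq_of_beq_eq_true h.2
    · exact Nat.eq_of_beq_eq_true h.1) h31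
  obtain ⟨d1, d2⟩ := level [lab 62, lab 43, lab 40] (lab 66) lev4 (by decide) (by
    intro x hx r hr
    have h := List.all_eq_true.1 h42 x hx
    simp only [Bool.and_eq_true] at h
    simp only [List.mem_cons, List.not_mem_nil, or_false] at hr
    rcases hr with rfl | rfl | rfl
    · exact Nat.eq_of_beq_eq_true h.2
    · exact Nat.eq_of_beq_eq_true h.1.2
    · exact Nat.eq_of_beq_eq_true h.1.1) h41
  exact ⟨a1, a2, b1, b2, c1, c2, d1, d2, trivial⟩

/-- The final stabilizer. -/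
noncomputable def Pl0 : Subgroup G0 := Pl φ E2 [lab 66, lab 62, lab 43, lab 40]

theorem chain_bound : 256 * Nat.card Pl0 ≤ Nat.card E2 := by
  have h := chain_le φ E2 [] chain0 valid_chain
  rw [Pl_nil] at h
  exact h

theorem AA_lab_of {n : ℕ} (h : chkA n = true) : AA (lab n) := (AA_lab h).1

theorem base_AA : chkA 40 = true ∧ chkA 43 = true ∧ chkA 62 = true ∧ chkA 66 = true := by decide +kernel

theorem V0_le_Pl0 : V0 ≤ Pl0 := by
  intro v hv
  refine ⟨V0_le_E2 hv, fun b hb => ?_⟩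
  have hA : AA b := by
    obtain ⟨h1, h2, h3, h4⟩ := base_AA
    simp only [List.mem_cons, List.not_mem_nil, or_false] at hb
    rcases hb with rfl | rfl | rfl | rfl
    · exact AA_lab_of h4
    · exact AA_lab_of h3
    · exact AA_lab_of h2
    · exact AA_lab_of h1
  rw [← comm_t_iff']
  exact V0_central hv (t_AA_mem hA)

theorem card_E2 : Nat.card E2 = 1024 ∧ Nat.card Pl0 = 4 := by
  have h1 := chain_bound
  have h2 : Nat.card E2 ≤ 1024 := by
    rw [← card_EE]
    exact Subgroup.card_le_of_le E2_le_EE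
  have h3 : Nat.card V0 ≤ Nat.card Pl0 := Subgroup.card_le_of_le V0_le_Pl0
  have h4 := card_V0
  omega

theorem E2_eq : E2 = EE := Subgroup.eq_of_le_of_card_ge E2_le_EE (by rw [card_EE, card_E2.1])

theorem Pl0_eq : Pl0 = V0 := by
  symm
  apply Subgroup.eq_of_le_of_card_ge V0_le_Pl0
  rw [card_E2.2]
  exact card_V0

/-- A member of the kernel fixing the four labels lies in `V`. -/
theorem mem_V0_of_fix {z : G0} (hz : z ∈ EE) (h : ∀ b ∈ [lab 66, lab 62, lab 43, lab 40], φ z b = b) : z ∈ V0 := by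
  rw [← Pl0_eq]
  exact ⟨by rw [E2_eq]; exact hz, h⟩

/-! ### Commutators and squares -/

theorem cm_chk : pairs.all (fun x => pairs.all fun y => [40, 43, 62, 66].all fun r =>
    Nat.beq (gv x (gv y (gv x.swap (gv y.swap r)))) r) = true := by decide +kernel

theorem gg_cm {x y : ℕ × ℕ} (hx : x ∈ pairs) (hy : y ∈ pairs) : gg x * gg y * (gg x)⁻¹ * (gg y)⁻¹ ∈ V0 := by
  obtain ⟨-, -, x1, x2, -⟩ := pairs_spec hx
  obtain ⟨-, -, y1, y2, -⟩ := pairs_spec hy
  apply mem_V0_of_fix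
  · exact mul_mem (mul_mem (mul_mem (gg_mem_EE hx) (gg_mem_EE hy)) (inv_mem (gg_mem_EE hx))) (inv_mem (gg_mem_EE hy))
  · intro b hb
    have hc := List.all_eq_true.1 (List.all_eq_true.1 (List.all_eq_true.1 cm_chk x hx) y hy) b.1 (by
      simp only [List.mem_cons, List.not_mem_nil, or_false] at hb
      rcases hb with rfl | rfl | rfl | rfl <;> decide)
    apply Fin.ext
    rw [gg_inv, gg_inv]
    simp only [map_mul, Equiv.Perm.coe_mul, Function.comp_apply]
    rw [gg_val x1 x2, gg_val y1 y2, gg_val x2 x1, gg_val y2 y1]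
    exact Nat.eq_of_beq_eq_true hc

/-- The commutator property on generators. -/
theorem gens_cm {g h : G0} (hg : g ∈ gensL) (hh : h ∈ gensL) : g * h * g⁻¹ * h⁻¹ ∈ V0 := by
  have hgK : g ∈ K0 := E2_le_K0 (Subgroup.subset_closure hg)
  have hhK : h ∈ K0 := E2_le_K0 (Subgroup.subset_closure hh)
  have ha : ∀ {u v : G0}, Commute u v → u * v * u⁻¹ * v⁻¹ = 1 := fun {u v} c => by
    rw [c.eq]
    group
  have h1 : a0 ∈ V0 := mem_V0.2 (by simp)
  have h2 : t lb6 ∈ V0 := mem_V0.2 (by simp)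
  rcases gens_cases hg with rfl | rfl | ⟨x, hx, rfl⟩
  · rw [ha (V0_central h1 hhK)]
    exact one_mem _
  · rw [ha (V0_central h2 hhK)]
    exact one_mem _
  · rcases gens_cases hh with rfl | rfl | ⟨y, hy, rfl⟩
    · rw [ha (V0_central h1 hgK).symm]
      exact one_mem _
    · rw [ha (V0_central h2 hgK).symm]
      exact one_mem _
    · exact gg_cm hx hy

/-- The commutator property extends over the first variable. -/
theorem cm_left {h : G0} (hh : h ∈ K0) (hgen : ∀ g ∈ gensL, g * h * g⁻¹ * h⁻¹ ∈ V0) {x : G0} (hx : x ∈ E2) :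
    x * h * x⁻¹ * h⁻¹ ∈ V0 := by
  induction hx using Subgroup.closure_induction with
  | mem y hy => exact hgen y hy
  | one => simp
  | mul a b ha' hb' ha hb =>
    have e : a * b * h * (a * b)⁻¹ * h⁻¹ = (a * (b * h * b⁻¹ * h⁻¹) * a⁻¹) * (a * h * a⁻¹ * h⁻¹) := by group
    rw [e]
    refine mul_mem ?_ ha
    have hc := V0_central hb (E2_le_K0 ha')
    rw [← hc.eq]
    have e2 : (b * h * b⁻¹ * h⁻¹) * a * a⁻¹ = b * h * b⁻¹ * h⁻¹ := by group
    rwa [e2]
  | inv a ha' ha =>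
    have e : a⁻¹ * h * a⁻¹⁻¹ * h⁻¹ = a⁻¹ * (a * h * a⁻¹ * h⁻¹)⁻¹ * a := by group
    rw [e]
    have hc := V0_central (inv_mem ha) (inv_mem (E2_le_K0 ha'))
    rw [← hc.eq]
    have e2 : (a * h * a⁻¹ * h⁻¹)⁻¹ * a⁻¹ * a = (a * h * a⁻¹ * h⁻¹)⁻¹ := by group
    rw [e2]
    exact inv_mem ha

theorem cm_all {x y : G0} (hx : x ∈ E2) (hy : y ∈ E2) : x * y * x⁻¹ * y⁻¹ ∈ V0 := by
  have h1 : ∀ g ∈ gensL, y * g * y⁻¹ * g⁻¹ ∈ V0 := fun g hg =>
    cm_left (E2_le_K0 (Subgroup.subset_closure hg)) (fun g' hg' => gens_cm hg' hg) hy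
  apply cm_left (E2_le_K0 hy) _ hx
  intro g hg
  have := inv_mem (h1 g hg)
  have e : (y * g * y⁻¹ * g⁻¹)⁻¹ = g * y * g⁻¹ * y⁻¹ := by group
  rwa [e] at this

theorem sq_all {x : G0} (hx : x ∈ E2) : x ^ 2 ∈ V0 := by
  rw [pow_two]
  induction hx using Subgroup.closure_induction with
  | mem y hy =>
    rcases gens_cases hy with rfl | rfl | ⟨z, hz, rfl⟩
    · rw [a0_sq]
      exact one_mem _
    · rw [b0_sq]
      exact one_mem _
    · rw [gg_comm hz]
      exact one_mem _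
  | one => simp
  | mul a b ha' hb' ha hb =>
    have h1 := cm_all hb' ha'
    have e : a * b * (a * b) = a * (b * a * b⁻¹ * a⁻¹) * a⁻¹ * (a * a) * (b * b) := by group
    rw [e]
    refine mul_mem (mul_mem ?_ ha) hb
    have hc := V0_central h1 (E2_le_K0 ha')
    rw [← hc.eq]
    have e2 : (b * a * b⁻¹ * a⁻¹) * a * a⁻¹ = b * a * b⁻¹ * a⁻¹ := by group
    rwa [e2]
  | inv a _ ha =>
    have := inv_mem ha
    have e : (a * a)⁻¹ = a⁻¹ * a⁻¹ := by group
    rwa [e] at this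

/-! ### The centre -/

theorem mem_center_K0 {z : ↥K0} (hz : z ∈ Subgroup.center ↥K0) : z.1 ∈ V0 := by
  have hfix : ∀ p, AA p → φ z.1 p = p := by
    intro p hp
    rw [← comm_t_iff']
    have := Subgroup.mem_center_iff.1 hz ⟨t p, t_AA_mem hp⟩
    exact (congrArg Subtype.val this).symm
  have hE : z.1 ∈ EE := mem_EE.2 ⟨K0_le_C0 z.2, autC_eq_one_of_fix hfix⟩
  apply mem_V0_of_fix hE
  intro b hb
  apply hfix
  obtain ⟨h1, h2, h3, h4⟩ := base_AA
  simp only [List.mem_cons, List.not_mem_nil, or_false] at hb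
  rcases hb with rfl | rfl | rfl | rfl
  · exact AA_lab_of h4
  · exact AA_lab_of h3
  · exact AA_lab_of h2
  · exact AA_lab_of h1

theorem center_K0 : (Subgroup.center ↥K0).map K0.subtype = V0 := by
  ext x
  constructor
  · rintro ⟨z, hz, rfl⟩
    exact mem_center_K0 hz
  · intro hx
    refine ⟨⟨x, V0_le_K0 hx⟩, Subgroup.mem_center_iff.2 ?_, rfl⟩
    intro y
    exact Subtype.ext (V0_central hx y.2).symm.eq

/-! ### The conclusion in `G0` -/

/-- **The statement for the explicit group.** -/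
theorem concl0 : K0 ≤ C0 ∧ (K0.subgroupOf C0).index = 2 ∧ (Subgroup.center ↥K0).map K0.subtype = V0 ∧
    ∃ E : Subgroup G0, V0 ≤ E ∧ E ≤ C0 ∧ (∀ c ∈ C0, ∀ x ∈ E, c * x * c⁻¹ ∈ E) ∧ Nat.card E = 2 ^ 10 ∧
      (∀ x ∈ E, ∀ y ∈ E, x * y * x⁻¹ * y⁻¹ ∈ V0 ∧ x ^ 2 ∈ V0) ∧
      ∃ (_ : (E.subgroupOf C0).Normal) (F : Type) (_ : Field F) (_ : Fintype F), Fintype.card F = 4 ∧
        Nonempty (↥C0 ⧸ E.subgroupOf C0 ≃* MulAut (Cfsg.PSU 4 F 2)) := by
  refine ⟨K0_le_C0, index_K0, center_K0, EE, V0_le_EE, EE_le_C0, fun c hc x hx => EE_conj hc hx, ?_, ?_, ?_⟩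
  · rw [card_EE]
    norm_num
  · intro x hx y hy
    rw [← E2_eq] at hx hy
    exact ⟨cm_all hx hy, sq_all hx⟩
  · have e : EE.subgroupOf C0 = autC.ker := Subgroup.comap_map_eq_self_of_injective C0.subtype_injective _
    have hn : (EE.subgroupOf C0).Normal := by
      rw [e]
      infer_instance
    refine ⟨hn, F4, inferInstance, inferInstance, rfl, ⟨?_⟩⟩
    exact (QuotientGroup.quotientMulEquivOfEq e).trans (QuotientGroup.quotientKerEquivOfSurjective autC autC_surj)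

end Cfsg.Agent.Lib.Fischer.M22.Pair
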