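/-
Transport of the structure of the centralizer of a product of two commuting transpositions along an isomorphism.
-/
import Mathlib
import Cfsg.Agent.Lib.Fischer.M22.Pair.Ker
import Cfsg.Agent.Lib.Fischer.M22.ExplicitTransport

set_option autoImplicit false

namespace Cfsg.Agent.Lib.Fischer.M22.Pair

open Cfsg

/-- The statement about the centralizer of a product. -/
def ConclS {G : Type*} [Group G] (K C V : Subgroup G) : Prop :=
  K ≤ C ∧ (K.subgroupOf C).index = 2 ∧ (Subgroup.center ↥K).map K.subtype = V ∧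
  ∃ E : Subgroup G, V ≤ E ∧ E ≤ C ∧ (∀ c ∈ C, ∀ x ∈ E, c * x * c⁻¹ ∈ E) ∧ Nat.card E = 2 ^ 10 ∧
    (∀ x ∈ E, ∀ y ∈ E, x * y * x⁻¹ * y⁻¹ ∈ V ∧ x ^ 2 ∈ V) ∧
    ∃ (_ : (E.subgroupOf C).Normal) (F : Type) (_ : Field F) (_ : Fintype F), Fintype.card F = 4 ∧
      Nonempty (↥C ⧸ E.subgroupOf C ≃* MulAut (Cfsg.PSU 4 F 2))

section

variable {G G' : Type*} [Group G] [Group G'] (f : G ≃* G')

theorem map_centralizer (S : Set G) :
    (Subgroup.centralizer S).map f.toMonoidHom = Subgroup.centralizer (f '' S) := by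
  ext x
  constructor
  · rintro ⟨y, hy, rfl⟩
    rw [SetLike.mem_coe, Subgroup.mem_centralizer_iff] at hy
    rw [Subgroup.mem_centralizer_iff]
    rintro _ ⟨s, hs, rfl⟩
    have := hy s hs
    show f s * f y = f y * f s
    rw [← map_mul, ← map_mul, this]
  · intro hx
    refine ⟨f.symm x, ?_, by simp⟩
    rw [Subgroup.mem_centralizer_iff] at hx
    rw [SetLike.mem_coe, Subgroup.mem_centralizer_iff]
    intro s hs
    have := hx (f s) ⟨s, hs, rfl⟩
    apply f.injective
    rw [map_mul, map_mul, f.apply_symm_apply]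
    exact this

theorem mem_map_center {K : Subgroup G} {x : G} :
    x ∈ (Subgroup.center ↥K).map K.subtype ↔ x ∈ K ∧ ∀ y ∈ K, y * x = x * y := by
  constructor
  · rintro ⟨z, hz, rfl⟩
    refine ⟨z.2, fun y hy => ?_⟩
    exact congrArg Subtype.val (Subgroup.mem_center_iff.1 hz ⟨y, hy⟩)
  · rintro ⟨h1, h2⟩
    exact ⟨⟨x, h1⟩, Subgroup.mem_center_iff.2 fun y => Subtype.ext (h2 y.1 y.2), rfl⟩

theorem conclS_map {K C V : Subgroup G}
    (h : ConclS (K.map f.toMonoidHom) (C.map f.toMonoidHom) (V.map f.toMonoidHom)) : ConclS K C V := by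
  obtain ⟨h1, h2, h3, E', hVE, hEC, hconj, hcard, hcomm, hn, F, iF, fF, hF, ⟨e⟩⟩ := h
  have mem : ∀ {S : Subgroup G} {x : G}, f x ∈ S.map f.toMonoidHom ↔ x ∈ S := by
    intro S x
    constructor
    · rintro ⟨y, hy, e⟩
      rwa [← f.injective e]
    · intro hx
      exact ⟨x, hx, rfl⟩
  let E := E'.comap f.toMonoidHom
  have memE : ∀ {x : G}, x ∈ E ↔ f x ∈ E' := Iff.rfl
  -- the isomorphism of the centralizers
  let eC : ↥C ≃* ↥(C.map f.toMonoidHom) := f.subgroupMap C
  have heC : ∀ x : ↥C, (eC x).1 = f x.1 := fun x => rfl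
  refine ⟨fun x hx => mem.1 (h1 (mem.2 hx)), ?_, ?_, E, ?_, ?_, ?_, ?_, ?_, ?_⟩
  · rw [← h2]
    have e1 : K.subgroupOf C = ((K.map f.toMonoidHom).subgroupOf (C.map f.toMonoidHom)).comap eC.toMonoidHom := by
      ext x
      rw [Subgroup.mem_subgroupOf, Subgroup.mem_comap, Subgroup.mem_subgroupOf]
      exact mem.symm
    rw [e1]
    exact Subgroup.index_comap_of_surjective _ eC.surjective
  · ext x
    rw [mem_map_center, ← mem (S := V), ← h3, mem_map_center, mem]
    constructor
    · rintro ⟨a, b⟩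
      refine ⟨a, fun y hy => ?_⟩
      obtain ⟨y', hy', rfl⟩ := hy
      show f y' * f x = _
      rw [← map_mul, b y' hy', map_mul]
      rfl
    · rintro ⟨a, b⟩
      refine ⟨a, fun y hy => f.injective ?_⟩
      rw [map_mul, map_mul]
      exact b (f y) (mem.2 hy)
  · exact fun x hx => hVE (mem.2 hx)
  · exact fun x hx => mem.1 (hEC hx)
  · intro c hc x hx
    show f (c * x * c⁻¹) ∈ E'
    rw [map_mul, map_mul, map_inv]
    exact hconj _ (mem.2 hc) _ hx
  · have h4 : E.map f.toMonoidHom = E' := Subgroup.map_comap_eq_self_of_surjective f.surjective E'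
    rw [← hcard, ← h4, Subgroup.card_map_of_injective f.injective]
  · intro x hx y hy
    have := hcomm (f x) hx (f y) hy
    rw [← map_pow, ← map_inv, ← map_inv, ← map_mul, ← map_mul, ← map_mul] at this
    exact ⟨mem.1 this.1, mem.1 this.2⟩
  · have hnE : (E.subgroupOf C).Normal := by
      refine ⟨fun n hn' g => ?_⟩
      rw [Subgroup.mem_subgroupOf] at hn' ⊢
      show g.1 * n.1 * g.1⁻¹ ∈ E
      exact (show ∀ c ∈ C, ∀ x ∈ E, c * x * c⁻¹ ∈ E from by
        intro c hc x hx
        show f (c * x * c⁻¹) ∈ E'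
        rw [map_mul, map_mul, map_inv]
        exact hconj _ (mem.2 hc) _ hx) g.1 g.2 n.1 hn'
    refine ⟨hnE, F, iF, fF, hF, ⟨?_⟩⟩
    have hm : (E.subgroupOf C).map eC.toMonoidHom = E'.subgroupOf (C.map f.toMonoidHom) := by
      ext y
      constructor
      · rintro ⟨x, hx, rfl⟩
        exact hx
      · intro hy
        refine ⟨eC.symm y, ?_, eC.apply_symm_apply y⟩
        show f (eC.symm y).1 ∈ E'
        rw [← heC, eC.apply_symm_apply]
        exact hy
    exact (QuotientGroup.congr _ _ eC hm).trans e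

/-- Transport along an isomorphism, for the subgroups of the statement. -/
theorem concl_map {d₁ d₂ : G}
    (h : ConclS (Subgroup.centralizer ({f d₁, f d₂} : Set G')) (Subgroup.centralizer ({f d₁ * f d₂} : Set G'))
      (Subgroup.closure ({f d₁, f d₂} : Set G'))) :
    ConclS (Subgroup.centralizer ({d₁, d₂} : Set G)) (Subgroup.centralizer ({d₁ * d₂} : Set G))
      (Subgroup.closure ({d₁, d₂} : Set G)) := by
  apply conclS_map f
  rw [map_centralizer, map_centralizer, MonoidHom.map_closure, Set.image_pair, Set.image_singleton, map_mul]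
  have e : (f.toMonoidHom '' ({d₁, d₂} : Set G)) = ({f d₁, f d₂} : Set G') := by
    rw [Set.image_pair]
    rfl
  rw [e]
  exact h

end

/-- The statement for the explicit group. -/
theorem conclG0 : ConclS (Subgroup.centralizer ({Explicit.a0, Explicit.tn 6} : Set Explicit.G0))
    (Subgroup.centralizer ({Explicit.a0 * Explicit.tn 6} : Set Explicit.G0))
    (Subgroup.closure ({Explicit.a0, Explicit.tn 6} : Set Explicit.G0)) := by
  rw [Explicit.tn_6']
  exact concl0

/-- **The structure of the centralizer of the product of two commuting transpositions** in type `M(22)`. -/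
theorem main {G : Type*} [Group G] [Finite G] {D : Set G} (hD : IsThreeTranspositionGroup D)
    (hprim : IsPrimitiveUnderConj D) (ht : IsOfTypeM22 G D) (d₁ d₂ : G) (h₁ : d₁ ∈ D) (h₂ : d₂ ∈ D) (hne : d₁ ≠ d₂)
    (hc : Commute d₁ d₂) :
    ConclS (Subgroup.centralizer ({d₁, d₂} : Set G)) (Subgroup.centralizer ({d₁ * d₂} : Set G))
      (Subgroup.closure ({d₁, d₂} : Set G)) := by
  obtain ⟨e, he⟩ := Explicit.exists_iso hD hprim ht
  obtain ⟨g, hg1, hg2⟩ := Explicit.pair_nf ((he _).1 h₁) ((he _).1 h₂) (hc.map e) (fun k => hne (e.injective k))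
  let f : G ≃* Explicit.G0 := e.trans (MulAut.conj g)
  have f1 : f d₁ = Explicit.a0 := hg1
  have f2 : f d₂ = Explicit.tn 6 := hg2
  apply concl_map f
  rw [f1, f2]
  exact conclG0

end Cfsg.Agent.Lib.Fischer.M22.Pair
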