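/-
The full isometry group of the elliptic form in dimension six over the field with two elements is the automorphism group of `PSU₄(2)`.
-/
import Mathlib
import Cfsg.Agent.S0288
import Cfsg.Agent.S0303
import Cfsg.Agent.Lib.Classical.Orth.Center
import Cfsg.Agent.Lib.Fischer.M22.Pair.U4

set_option autoImplicit false
set_option linter.unusedSectionVars false
set_option linter.unusedSimpArgs false
set_option linter.unusedVariables false

namespace Cfsg.Agent.Lib.Fischer.M22.Pair.Orth

open Cfsg Cfsg.Agent.Lib.Compute.GF4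
open Cfsg.Agent.Lib.Classical.Orth.Basic
open QuadraticMap

/-- The elliptic form. -/
noncomputable abbrev Q6 : QuadraticForm (ZMod 2) ((Fin 2 ⊕ Fin 2) ⊕ Fin 2 → ZMod 2) :=
  Cfsg.Agent.Lib.Classical.Orth.Models.minusForm 2 (ZMod 2) 1 1

theorem hab : ∀ z₁ z₂ : ZMod 2, z₁ ^ 2 + 1 * z₁ * z₂ + 1 * z₂ ^ 2 = 0 → z₁ = 0 ∧ z₂ = 0 := by decide

theorem hnd : (polarBilin Q6).Nondegenerate := Cfsg.Agent.Lib.Classical.Orth.Models.minusForm_nondegenerate 2 1 1 hab

/-- The isometry group. -/
noncomputable abbrev O6 := ↥(Cfsg.isometryGroup (ZMod 2) (⇑Q6))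

/-- The commutator subgroup. -/
noncomputable abbrev Om6 := Cfsg.Omega (ZMod 2) (⇑Q6)

theorem hcard6 : Fintype.card ((Fin 2 ⊕ Fin 2) ⊕ Fin 2) = 6 := rfl

theorem index_Om6 : Om6.index = 2 :=
  Cfsg.Agent.Lib.Classical.Orth.Dickson.omega_index_char_two hnd (Or.inr (by rw [hcard6]; norm_num)) ⟨.inr 0⟩

theorem center_Om6 : Subgroup.center ↥Om6 = ⊥ :=
  Cfsg.Agent.Lib.Classical.Orth.Center.center_eq_bot hnd (by rw [hcard6]; norm_num) (by
    intro g _ hm
    apply Subtype.ext
    apply Units.ext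
    rw [hm]
    show (-1 : Matrix _ _ (ZMod 2)) = 1
    exact neg_eq_of_add_eq_zero_left (by
      rw [← two_smul (ZMod 2) (1 : Matrix _ _ (ZMod 2))]
      rw [show (2 : ZMod 2) = 0 from rfl, zero_smul]))

theorem card_O6 : Nat.card O6 = 51840 := by
  have h := Cfsg.Agent.S0288.result (q := 2) (F := ZMod 2) (by simp [ZMod.card]) 3 (by norm_num) 1 1 hab
  rw [show 3 - 1 = 2 from rfl, ← Cfsg.Agent.Lib.Classical.Orth.Models.coe_minusForm] at h
  rw [h]
  norm_num [Finset.prod_range_succ]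

/-- `Ω` is `PSU₄(2)`. -/
theorem iso_Om6 : Nonempty (↥Om6 ≃* U4.PS) := by
  obtain ⟨e⟩ := Cfsg.Agent.S0303.result (F := ZMod 2) (K := F4) (q := 2) (by simp [ZMod.card]) U4.hF4 1 1 hab
  rw [← Cfsg.Agent.Lib.Classical.Orth.Models.coe_minusForm] at e
  exact ⟨(QuotientGroup.quotientBot (G := ↥Om6)).symm.trans ((QuotientGroup.quotientMulEquivOfEq center_Om6).symm.trans e)⟩

/-! ### The centre of the isometry group -/

theorem zmod2_ne_zero {x : ZMod 2} (h : x ≠ 0) : x = 1 := by
  revert x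
  decide

/-- A central isometry fixes every vector of non-zero value. -/
theorem fix_of_central {g : O6} (hg : ∀ h : O6, h * g = g * h) {v : (Fin 2 ⊕ Fin 2) ⊕ Fin 2 → ZMod 2} (hv : Q6 v ≠ 0) :
    act g v = v := by
  have hv1 := zmod2_ne_zero hv
  have h1 := conj_reflectionIso g v hv
  have h2 : g * reflectionIso Q6 v hv * g⁻¹ = reflectionIso Q6 v hv := by
    rw [← hg (reflectionIso Q6 v hv)]
    group
  rw [h2] at h1
  have hv0 : v ≠ 0 := by
    rintro rfl
    exact hv (map_zero Q6)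
  obtain ⟨x, hx⟩ : ∃ x, polar (⇑Q6) v x ≠ 0 := by
    by_contra hcon
    push Not at hcon
    exact hv0 (hnd.1 v (fun y => hcon y))
  have hx1 := zmod2_ne_zero hx
  have h3 := congrArg (fun r => act r x) h1
  simp only [reflectionIso_act, Q_act, hv1, inv_one, one_mul, hx1, one_smul] at h3
  have h4 : v = polar (⇑Q6) (act g v) x • act g v := by
    exact sub_right_injective h3
  by_cases h5 : polar (⇑Q6) (act g v) x = 0
  · rw [h5, zero_smul] at h4
    exact absurd h4 hv0
  · rw [zmod2_ne_zero h5, one_smul] at h4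
    exact h4.symm

theorem single_chk : ∀ i : (Fin 2 ⊕ Fin 2) ⊕ Fin 2,
    Cfsg.quadFormMinus 2 (ZMod 2) 1 1 (Pi.single i 1) ≠ 0 ∨
    Cfsg.quadFormMinus 2 (ZMod 2) 1 1 (Pi.single i 1 + Pi.single (.inr 0) 1) ≠ 0 := by
  decide

theorem center_O6 {g : O6} (hg : ∀ h : O6, h * g = g * h) : g = 1 := by
  have hz : Q6 (Pi.single (.inr 0) 1) ≠ 0 := by
    rw [Cfsg.Agent.Lib.Classical.Orth.Models.coe_minusForm_apply]
    decide
  apply ext_act
  have key : ∀ i, act g (Pi.single i 1) = Pi.single i 1 := by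
    intro i
    rcases single_chk i with h | h
    · exact fix_of_central hg (by rwa [Cfsg.Agent.Lib.Classical.Orth.Models.coe_minusForm_apply])
    · have h1 := fix_of_central hg (v := Pi.single i 1 + Pi.single (.inr 0) 1)
        (by rwa [Cfsg.Agent.Lib.Classical.Orth.Models.coe_minusForm_apply])
      rw [act_add, fix_of_central hg hz] at h1
      exact add_right_cancel h1
  intro x
  rw [act_one]
  have h1 : x = ∑ i, x i • Pi.single i (1 : ZMod 2) := by
    funext j
    simp [Finset.sum_apply, Pi.single_apply]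
  unfold act
  conv_lhs => rw [h1]
  rw [Matrix.mulVec_sum]
  conv_rhs => rw [h1]
  apply Finset.sum_congr rfl
  intro i _
  rw [Matrix.mulVec_smul]
  congr 1
  exact key i

/-! ### The isomorphism -/

theorem conj_inj : Function.Injective (MulAut.conjNormal (H := Om6)) := by
  rw [injective_iff_map_eq_one]
  intro g hg
  have hcomm : ∀ x : O6, x ∈ Om6 → x * g = g * x := by
    intro x hx
    have h1 := congrArg (fun f : MulAut ↥Om6 => (f ⟨x, hx⟩ : ↥Om6).1) hg
    simp only [MulAut.conjNormal_apply, MulAut.one_apply] at h1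
    calc x * g = g * x * g⁻¹ * g := by rw [h1]
      _ = g * x := by group
  by_cases hm : g ∈ Om6
  · have h1 : (⟨g, hm⟩ : ↥Om6) ∈ Subgroup.center ↥Om6 := by
      rw [Subgroup.mem_center_iff]
      intro y
      exact Subtype.ext (hcomm y.1 y.2)
    rw [center_Om6, Subgroup.mem_bot] at h1
    exact congrArg Subtype.val h1
  · apply center_O6
    intro h
    by_cases hh : h ∈ Om6
    · exact hcomm h hh
    · have h2 : g⁻¹ * h ∈ Om6 := by
        have h3 := Subgroup.mul_mem_iff_of_index_two index_Om6 (a := g⁻¹) (b := h)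
        rw [h3]
        have h4 : g⁻¹ ∉ Om6 := fun k => hm (by simpa using inv_mem k)
        simp [h4, hh]
      have h5 := hcomm _ h2
      have h6 : h = g * (g⁻¹ * h) := by group
      rw [h6]
      rw [mul_assoc, h5]

/-- **`O₆⁻(2)` is the automorphism group of `PSU₄(2)`.** -/
theorem iso_aut : Nonempty (MulAut U4.PS ≃* ↥(Cfsg.isometryGroup (ZMod 2) (Cfsg.quadFormMinus 2 (ZMod 2) 1 1))) := by
  rw [← Cfsg.Agent.Lib.Classical.Orth.Models.coe_minusForm]
  obtain ⟨e⟩ := iso_Om6
  have h1 : Nat.card (MulAut ↥Om6) = 51840 := by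
    rw [Nat.card_congr (MulAut.congr e).toEquiv, U4.card_aut4]
  have : Finite (MulAut ↥Om6) := Nat.finite_of_card_ne_zero (by rw [h1]; norm_num)
  have hb : Function.Bijective (MulAut.conjNormal (H := Om6)) :=
    (Nat.bijective_iff_injective_and_card _).2 ⟨conj_inj, by rw [card_O6, h1]⟩
  exact ⟨((MulEquiv.ofBijective _ hb).trans (MulAut.congr e)).symm⟩

end Cfsg.Agent.Lib.Fischer.M22.Pair.Orth
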