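/-
The generalized Fitting subgroup of the centralizer of a product of two commuting transpositions of `G0`.
-/
import Mathlib
import Cfsg.Agent.Lib.Components.FStar
import Cfsg.Agent.Lib.Components.Layer
import Cfsg.Agent.Lib.Components.Transport
import Cfsg.Agent.Lib.PGroup.ExtraMk
import Cfsg.Agent.Lib.Fischer.M22.Pair.Main
import Cfsg.Agent.Lib.Fischer.M22.Pair.Orth

set_option autoImplicit false
set_option linter.unusedSectionVars false
set_option linter.unusedSimpArgs false
set_option linter.unusedVariables false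
set_option maxRecDepth 100000

namespace Cfsg.Agent.Lib.Fischer.M22.Pair

open Cfsg Cfsg.Agent.Lib.Compute.GF4 Cfsg.Agent.Lib.Fischer.Basic Cfsg.Agent.Lib.Fischer.Local
open Cfsg.Agent.Lib.Fischer.M22.Model Cfsg.Agent.Lib.Fischer.M22.Bridge
open Cfsg.Agent.Lib.Fischer.M22.Explicit
open Cfsg.Agent.Lib.Fischer.Gen.Chain
open Cfsg.Agent.Lib.Fischer.M22.Rows (tv tv_spec)
open scoped commutatorElement

/-! ### Normal subgroups of the automorphism group -/

theorem inn_le_of_normal {A : Subgroup (MulAut U4.PS)} (hA : A.Normal) (hne : A ≠ ⊥) (x : U4.PS) : MulAut.conj x ∈ A := by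
  haveI := U4.simple4
  let A' : Subgroup U4.PS := A.comap (MulAut.conj (G := U4.PS))
  have hn : A'.Normal := Subgroup.Normal.comap hA _
  rcases IsSimpleGroup.eq_bot_or_eq_top_of_normal A' hn with h | h
  · exfalso
    apply hne
    rw [eq_bot_iff]
    intro α hα
    rw [Subgroup.mem_bot]
    apply MulEquiv.ext
    intro y
    show α y = y
    have h1 : MulAut.conj (α y * y⁻¹) ∈ A := by
      have e0 : MulAut.conj (α y) = α * MulAut.conj y * α⁻¹ := by
        apply MulEquiv.ext
        intro z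
        have e2 : α (α⁻¹ z) = z := by
          rw [← MulAut.mul_apply, mul_inv_cancel]
          rfl
        simp only [MulAut.mul_apply, MulAut.conj_apply, map_mul, map_inv, e2]
      have e : MulAut.conj (α y * y⁻¹) = α * (MulAut.conj y * α⁻¹ * (MulAut.conj y)⁻¹) := by
        rw [map_mul, map_inv, e0]
        group
      rw [e]
      exact mul_mem hα (hA.conj_mem _ (inv_mem hα) _)
    have h2 : α y * y⁻¹ ∈ A' := h1
    rw [h, Subgroup.mem_bot] at h2
    exact mul_inv_eq_one.1 h2
  · have : x ∈ A' := by rw [h]; trivial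
    exact this

theorem not_nilpotent_PS : ¬ Group.IsNilpotent U4.PS := by
  intro h
  obtain ⟨n, hn⟩ := h.nilpotent'
  have key : ∀ n, Subgroup.upperCentralSeries U4.PS n = ⊥ := by
    intro n
    induction n with
    | zero => rfl
    | succ n ih =>
      rw [eq_bot_iff]
      intro x hx
      rw [Subgroup.mem_upperCentralSeries_succ_iff, ih] at hx
      have : x ∈ Subgroup.center U4.PS := by
        rw [Subgroup.mem_center_iff]
        intro y
        have h1 := hx y
        rw [Subgroup.mem_bot] at h1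
        have h2 : x * y * x⁻¹ = y := mul_inv_eq_one.1 h1
        calc y * x = x * y * x⁻¹ * x := by rw [h2]
          _ = x * y := by group
      rwa [U4.center4] at this
  rw [key] at hn
  have h1 : U4.T U4.v0 ∈ (⊥ : Subgroup U4.PS) := by rw [hn]; trivial
  exact U4.T_ne_one U4.iso_v0 (Subgroup.mem_bot.1 h1)

theorem normal_nilpotent_bot {A : Subgroup (MulAut U4.PS)} (hA : A.Normal) (hnil : Group.IsNilpotent ↥A) : A = ⊥ := by
  by_contra hne
  have h := inn_le_of_normal hA hne
  let f : U4.PS →* ↥A := (MulAut.conj (G := U4.PS)).codRestrict A h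
  have hinj : Function.Injective f := by
    rw [injective_iff_map_eq_one]
    intro x hx
    have hx' : MulAut.conj x = 1 := congrArg Subtype.val hx
    have hc : x ∈ Subgroup.center U4.PS := by
      rw [Subgroup.mem_center_iff]
      intro y
      have h1 := congrArg (fun f : MulAut U4.PS => f y) hx'
      simp only [MulAut.conj_apply, MulAut.one_apply] at h1
      calc y * x = x * y * x⁻¹ * x := by rw [h1]
        _ = x * y := by group
    rw [U4.center4, Subgroup.mem_bot] at hc
    exact hc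
  apply not_nilpotent_PS
  have h2 : Group.IsNilpotent ↥f.range := inferInstance
  exact (Group.isNilpotent_congr (MonoidHom.ofInjective hinj)).2 h2

/-! ### The generalized Fitting subgroup -/

/-- The kernel in the centralizer. -/
noncomputable abbrev kerX : Subgroup ↥C0 := autC.ker

instance kerX_normal : kerX.Normal := inferInstance

theorem kerX_two : IsPGroup 2 ↥kerX := IsPGroup.of_card (n := 10) (by rw [card_ker]; norm_num)

theorem kerX_nil : Group.IsNilpotent ↥kerX := by
  haveI : Fact (Nat.Prime 2) := ⟨Nat.prime_two⟩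
  exact kerX_two.isNilpotent

theorem kerX_le_fitting : kerX ≤ fittingSubgroup ↥C0 := le_sSup ⟨kerX_normal, kerX_nil⟩

theorem fitting_le_kerX : fittingSubgroup ↥C0 ≤ kerX := by
  apply sSup_le
  rintro N ⟨hN, hnil⟩
  have h1 : (N.map autC).Normal := hN.map _ autC_surj
  have h2 : Group.IsNilpotent ↥(N.map autC) := by
    let g : ↥N →* ↥(N.map autC) := (autC.comp N.subtype).codRestrict _ (fun x => ⟨x.1, x.2, rfl⟩)
    have hg : Function.Surjective g := by
      rintro ⟨_, x, hx, rfl⟩
      exact ⟨⟨x, hx⟩, rfl⟩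
    exact nilpotent_of_surjective g hg
  have h3 := normal_nilpotent_bot h1 h2
  intro x hx
  have h4 : autC x ∈ N.map autC := ⟨x, hx, rfl⟩
  rw [h3, Subgroup.mem_bot] at h4
  exact h4

/-- The transposition of a label moves a generator of the kernel outside `V`. -/
theorem t40_chk : chkA 40 = true ∧ tv 40 (gv (88, 89) (tv 40 (gv (89, 88) 62))) ≠ 62 := by decide +kernel

theorem lt_88 : (88, 89) ∈ pairs := by decide

/-- Elements of `E` do not centralize `E` modulo `V` unless they lie in the centralizer of `E` times `E`. -/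
theorem centralizer_le_kerX : Subgroup.centralizer (kerX : Set ↥C0) ≤ kerX := by
  set A := (Subgroup.centralizer (kerX : Set ↥C0)).map autC with hA
  have hn : A.Normal := by
    have : (Subgroup.centralizer (kerX : Set ↥C0)).Normal := Subgroup.normal_centralizer
    exact this.map _ autC_surj
  by_cases hbot : A = ⊥
  · intro x hx
    have h4 : autC x ∈ A := ⟨x, hx, rfl⟩
    rw [hbot, Subgroup.mem_bot] at h4
    exact h4
  · exfalso
    obtain ⟨h40, hchk⟩ := t40_chk
    have hA40 := AA_lab_of h40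
    have h1 := inn_le_of_normal hn hbot (cl (lab 40))
    rw [← autC_t hA40] at h1
    obtain ⟨c, hc, hce⟩ := h1
    -- `e := c⁻¹ * t₄₀` lies in the kernel
    let τ : ↥C0 := ⟨t (lab 40), t_mem_C0 hA40⟩
    have he : c⁻¹ * τ ∈ kerX := by
      rw [MonoidHom.mem_ker, map_mul, map_inv, hce, inv_mul_cancel]
    let g : ↥C0 := ⟨gg (88, 89), EE_le_C0 (gg_mem_EE lt_88)⟩
    have hg : g ∈ kerX := by
      have := (mem_EE.1 (gg_mem_EE lt_88)).2
      exact this
    have hEg : g.1 ∈ EE := gg_mem_EE lt_88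
    have hEe : (c⁻¹ * τ).1 ∈ EE := ⟨_, he, rfl⟩
    -- the commutator of `t₄₀` and `g` is that of `e` and `g`
    have hcg : g * c = c * g := (Subgroup.mem_centralizer_iff.1 hc g hg)
    have h2 := cm_all (by rw [E2_eq]; exact hEe) (by rw [E2_eq]; exact hEg)
    have h3 : (τ * g * τ⁻¹ * g⁻¹ : ↥C0).1 ∈ V0 := by
      set e := c⁻¹ * τ with hedef
      have hτ : τ = c * e := by
        rw [hedef]
        group
      have hz : (e * g * e⁻¹ * g⁻¹ : ↥C0).1 ∈ V0 := h2
      have hzE : e * g * e⁻¹ * g⁻¹ ∈ kerX :=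
        mul_mem (mul_mem (mul_mem he hg) (inv_mem he)) (inv_mem hg)
      have hcz := Subgroup.mem_centralizer_iff.1 hc _ hzE
      have e3 : τ * g * τ⁻¹ * g⁻¹ = e * g * e⁻¹ * g⁻¹ := by
        rw [hτ]
        have e4 : g⁻¹ * c = c * g⁻¹ := by
          have := hcg
          calc g⁻¹ * c = g⁻¹ * (c * g) * g⁻¹ := by group
            _ = g⁻¹ * (g * c) * g⁻¹ := by rw [hcg]
            _ = c * g⁻¹ := by group
        calc c * e * g * (c * e)⁻¹ * g⁻¹ = c * (e * g * e⁻¹) * c⁻¹ * g⁻¹ := by group
          _ = c * (e * g * e⁻¹ * g⁻¹) * g * c⁻¹ * g⁻¹ := by group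
          _ = (e * g * e⁻¹ * g⁻¹) * c * g * c⁻¹ * g⁻¹ := by rw [hcz]
          _ = (e * g * e⁻¹ * g⁻¹) * (g * c) * c⁻¹ * g⁻¹ := by
            rw [hcg]
            group
          _ = e * g * e⁻¹ * g⁻¹ := by group
      rw [e3]
      exact hz
    -- but the commutator moves the label `62`
    have hfix : ∀ v ∈ V0, φ v (lab 62) = lab 62 := by
      intro v hv
      exact (V0_le_Pl0 hv).2 _ (by simp)
    have h4 := hfix _ h3
    apply hchk
    have h5 := congrArg Fin.val h4
    have e5 : (τ⁻¹ : ↥C0).1 = t (lab 40) := inv_eq_of_mul_eq_one_left (t_sq _)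
    have e6 : (g⁻¹ : ↥C0).1 = gg (89, 88) := gg_inv
    have e7 : (τ * g * τ⁻¹ * g⁻¹ : ↥C0).1 = t (lab 40) * gg (88, 89) * t (lab 40) * gg (89, 88) := by
      show τ.1 * g.1 * (τ⁻¹ : ↥C0).1 * (g⁻¹ : ↥C0).1 = _
      rw [e5, e6]
    rw [e7] at h5
    simp only [map_mul, Equiv.Perm.coe_mul, Function.comp_apply] at h5
    rw [t_val (q := 40) (by decide), gg_val (x := (88, 89)) (by decide) (by decide), t_val (q := 40) (by decide),
      gg_val (x := (89, 88)) (by decide) (by decide)] at h5
    exact h5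

/-- **The generalized Fitting subgroup of the centralizer is the kernel.** -/
theorem fstar_eq : generalizedFittingSubgroup ↥C0 = kerX := by
  apply le_antisymm
  · refine sup_le ?_ fitting_le_kerX
    refine le_trans ?_ centralizer_le_kerX
    rw [← Subgroup.commutator_eq_bot_iff_le_centralizer]
    haveI : Fact (Nat.Prime 2) := ⟨Nat.prime_two⟩
    haveI := kerX_nil
    exact Cfsg.Agent.Lib.Components.Layer.commutator_layer_eq_bot_of_isSolvable inferInstance kerX_normal
  · exact kerX_le_fitting.trans le_sup_right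

/-! ### The structure of the kernel -/

/-- The product of the two transpositions. -/
noncomputable def j0 : G0 := a0 * t lb6

theorem j0_sq : j0 * j0 = 1 := by
  unfold j0
  calc a0 * t lb6 * (a0 * t lb6) = a0 * (t lb6 * a0) * t lb6 := by group
    _ = a0 * (a0 * t lb6) * t lb6 := by rw [comm_a0_b0.symm.eq]
    _ = (a0 * a0) * (t lb6 * t lb6) := by group
    _ = 1 := by rw [a0_sq, b0_sq, one_mul]

/-- The subgroup generated by the product. -/
noncomputable def J0 : Subgroup G0 where
  carrier := {x | x = 1 ∨ x = j0}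
  mul_mem' := by
    rintro _ _ (rfl | rfl) (rfl | rfl)
    · simp
    · simp
    · simp
    · left
      exact j0_sq
  one_mem' := Or.inl rfl
  inv_mem' := by
    rintro _ (rfl | rfl)
    · simp
    · right
      exact inv_eq_of_mul_eq_one_left j0_sq

theorem mem_J0 {x : G0} : x ∈ J0 ↔ x = 1 ∨ x = j0 := Iff.rfl

theorem J0_le_V0 : J0 ≤ V0 := by
  rintro _ (rfl | rfl)
  · exact one_mem _
  · exact mem_V0.2 (by simp [j0])

theorem J0_central {v x : G0} (hv : v ∈ J0) (hx : x ∈ K0) : Commute v x := V0_central (J0_le_V0 hv) hx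

theorem t_5 : tv 0 5 ≠ 5 ∧ tv 6 5 = 5 ∧ tv 0 10 = 10 ∧ tv 6 10 ≠ 10 := by decide +kernel

theorem lab_0 : lab 0 = pt0 := rfl

theorem a0_lab (p : Fin NN) : ((φ a0 p : Fin NN) : ℕ) = tv 0 p := by
  rw [← t_pt0, tv_spec]
  rfl

theorem b0_lab (p : Fin NN) : ((φ (t lb6) p : Fin NN) : ℕ) = tv 6 p := by
  rw [tv_spec]
  rfl

/-- A member of `V` with the same behaviour on the labels `5` and `10` lies in `J`. -/
theorem mem_J0_of {c : G0} (hc : c ∈ V0) (h : φ c (lab 5) = lab 5 ↔ φ c (lab 10) = lab 10) : c ∈ J0 := by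
  obtain ⟨h1, h2, h3, h4⟩ := t_5
  rcases mem_V0.1 hc with rfl | rfl | rfl | rfl
  · exact Or.inl rfl
  · exfalso
    have h5 : φ a0 (lab 10) = lab 10 := Fin.ext (by rw [a0_lab]; exact h3)
    have h6 := congrArg Fin.val (h.2 h5)
    rw [a0_lab] at h6
    exact h1 h6
  · exfalso
    have h5 : φ (t lb6) (lab 5) = lab 5 := Fin.ext (by rw [b0_lab]; exact h2)
    have h6 := congrArg Fin.val (h.1 h5)
    rw [b0_lab] at h6
    exact h4 h6
  · exact Or.inr rfl

/-- The commutators of the generators lie in `J`: the check on the two labels. -/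
theorem cmJ_chk : pairs.all (fun x => pairs.all fun y =>
    Nat.beq (gv x (gv y (gv x.swap (gv y.swap 5)))) 5 == Nat.beq (gv x (gv y (gv x.swap (gv y.swap 10)))) 10) = true := by
  decide +kernel

theorem gg_cmJ {x y : ℕ × ℕ} (hx : x ∈ pairs) (hy : y ∈ pairs) : gg x * gg y * (gg x)⁻¹ * (gg y)⁻¹ ∈ J0 := by
  obtain ⟨-, -, x1, x2, -⟩ := pairs_spec hx
  obtain ⟨-, -, y1, y2, -⟩ := pairs_spec hy
  apply mem_J0_of (gg_cm hx hy)
  have hc := List.all_eq_true.1 (List.all_eq_true.1 cmJ_chk x hx) y hy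
  have key : ∀ r : Fin NN, ((φ (gg x * gg y * (gg x)⁻¹ * (gg y)⁻¹) r : Fin NN) : ℕ) = gv x (gv y (gv x.swap (gv y.swap r))) := by
    intro r
    rw [gg_inv, gg_inv]
    simp only [map_mul, Equiv.Perm.coe_mul, Function.comp_apply]
    rw [gg_val x1 x2, gg_val y1 y2, gg_val x2 x1, gg_val y2 y1]
  have e1 : φ (gg x * gg y * (gg x)⁻¹ * (gg y)⁻¹) (lab 5) = lab 5 ↔
      Nat.beq (gv x (gv y (gv x.swap (gv y.swap 5)))) 5 = true := by
    rw [Nat.beq_eq, ← show ((lab 5 : Fin NN) : ℕ) = 5 from rfl, ← key]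
    exact Fin.ext_iff
  have e2 : φ (gg x * gg y * (gg x)⁻¹ * (gg y)⁻¹) (lab 10) = lab 10 ↔
      Nat.beq (gv x (gv y (gv x.swap (gv y.swap 10)))) 10 = true := by
    rw [Nat.beq_eq, ← show ((lab 10 : Fin NN) : ℕ) = 10 from rfl, ← key]
    exact Fin.ext_iff
  rw [e1, e2]
  have hc' := beq_iff_eq.1 hc
  rw [hc']

theorem gens_cmJ {g h : G0} (hg : g ∈ gensL) (hh : h ∈ gensL) : g * h * g⁻¹ * h⁻¹ ∈ J0 := by
  have hgK : g ∈ K0 := E2_le_K0 (Subgroup.subset_closure hg)
  have hhK : h ∈ K0 := E2_le_K0 (Subgroup.subset_closure hh)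
  have ha : ∀ {u v : G0}, Commute u v → u * v * u⁻¹ * v⁻¹ = 1 := fun {u v} c => by
    rw [c.eq]
    group
  have h1 : a0 ∈ V0 := mem_V0.2 (by simp)
  have h2 : t lb6 ∈ V0 := mem_V0.2 (by simp)
  rcases gens_cases hg with rfl | rfl | ⟨x, hx, rfl⟩
  · rw [ha (V0_central h1 hhK)]
    exact one_mem _
  · rw [ha (V0_central h2 hhK)]
    exact one_mem _
  · rcases gens_cases hh with rfl | rfl | ⟨y, hy, rfl⟩
    · rw [ha (V0_central h1 hgK).symm]
      exact one_mem _
    · rw [ha (V0_central h2 hgK).symm]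
      exact one_mem _
    · exact gg_cmJ hx hy

theorem cmJ_left {h : G0} (hh : h ∈ K0) (hgen : ∀ g ∈ gensL, g * h * g⁻¹ * h⁻¹ ∈ J0) {x : G0} (hx : x ∈ E2) :
    x * h * x⁻¹ * h⁻¹ ∈ J0 := by
  induction hx using Subgroup.closure_induction with
  | mem y hy => exact hgen y hy
  | one => simp [J0, one_mem]
  | mul a b ha' hb' ha hb =>
    have e : a * b * h * (a * b)⁻¹ * h⁻¹ = (a * (b * h * b⁻¹ * h⁻¹) * a⁻¹) * (a * h * a⁻¹ * h⁻¹) := by group
    rw [e]
    refine mul_mem ?_ ha
    have hc := J0_central hb (E2_le_K0 ha')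
    rw [← hc.eq]
    have e2 : (b * h * b⁻¹ * h⁻¹) * a * a⁻¹ = b * h * b⁻¹ * h⁻¹ := by group
    rwa [e2]
  | inv a ha' ha =>
    have e : a⁻¹ * h * a⁻¹⁻¹ * h⁻¹ = a⁻¹ * (a * h * a⁻¹ * h⁻¹)⁻¹ * a := by group
    rw [e]
    have hc := J0_central (inv_mem ha) (inv_mem (E2_le_K0 ha'))
    rw [← hc.eq]
    have e2 : (a * h * a⁻¹ * h⁻¹)⁻¹ * a⁻¹ * a = (a * h * a⁻¹ * h⁻¹)⁻¹ := by group
    rw [e2]
    exact inv_mem ha

theorem cmJ_all {x y : G0} (hx : x ∈ E2) (hy : y ∈ E2) : x * y * x⁻¹ * y⁻¹ ∈ J0 := by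
  have h1 : ∀ g ∈ gensL, y * g * y⁻¹ * g⁻¹ ∈ J0 := fun g hg =>
    cmJ_left (E2_le_K0 (Subgroup.subset_closure hg)) (fun g' hg' => gens_cmJ hg' hg) hy
  apply cmJ_left (E2_le_K0 hy) _ hx
  intro g hg
  have := inv_mem (h1 g hg)
  have e : (y * g * y⁻¹ * g⁻¹)⁻¹ = g * y * g⁻¹ * y⁻¹ := by group
  rwa [e] at this

theorem sqJ_all {x : G0} (hx : x ∈ E2) : x ^ 2 ∈ J0 := by
  rw [pow_two]
  induction hx using Subgroup.closure_induction with
  | mem y hy =>
    rcases gens_cases hy with rfl | rfl | ⟨z, hz, rfl⟩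
    · rw [a0_sq]
      exact one_mem _
    · rw [b0_sq]
      exact one_mem _
    · rw [gg_comm hz]
      exact one_mem _
  | one => simp [J0, one_mem]
  | mul a b ha' hb' ha hb =>
    have h1 := cmJ_all hb' ha'
    have e : a * b * (a * b) = a * (b * a * b⁻¹ * a⁻¹) * a⁻¹ * (a * a) * (b * b) := by group
    rw [e]
    refine mul_mem (mul_mem ?_ ha) hb
    have hc := J0_central h1 (E2_le_K0 ha')
    rw [← hc.eq]
    have e2 : (b * a * b⁻¹ * a⁻¹) * a * a⁻¹ = b * a * b⁻¹ * a⁻¹ := by group
    rwa [e2]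
  | inv a _ ha =>
    have := inv_mem ha
    have e : (a * a)⁻¹ = a⁻¹ * a⁻¹ := by group
    rwa [e] at this

/-- An element centralizing the kernel fixes a label having three distinct twins. -/
theorem fix_of_twins {x : G0} (hx : ∀ y ∈ EE, Commute x y) {r r1 r2 : Fin NN} (hr : AA r) (h1 : AA r1) (h2 : AA r2)
    (c1 : cl r = cl r1) (c2 : cl r = cl r2) (n1 : r ≠ r1) (n2 : r ≠ r2) (n12 : r1 ≠ r2) : φ x r = r := by
  have key : ∀ {q : Fin NN}, AA q → cl r = cl q → r ≠ q → φ x r = r ∨ φ x r = q := by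
    intro q hq cq nq
    have hcq : Commute (t r) (t q) := by
      rw [← cl_comm hr hq, ← cq]
    have hc := hx _ (twin_mem hr hq cq)
    have e : t (φ x r) * t (φ x q) = t r * t q := by
      rw [← t_conj, ← t_conj]
      calc x * t r * x⁻¹ * (x * t q * x⁻¹) = x * (t r * t q) * x⁻¹ := by group
        _ = (t r * t q) * x * x⁻¹ := by rw [hc.eq]
        _ = t r * t q := by group
    have l1 : PMl D0 2 (t r * t q) [t r, t q] := by
      refine ⟨?_, rfl, ?_, ?_, by simp⟩
      · simp only [List.nodup_cons, List.mem_singleton, List.not_mem_nil, not_false_eq_true, List.nodup_nil, and_self,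
          and_true]
        exact fun k => nq (t_inj k)
      · intro a ha
        simp only [List.mem_cons, List.not_mem_nil, or_false] at ha
        rcases ha with rfl | rfl <;> exact t_mem _
      · intro a ha b hb
        simp only [List.mem_cons, List.not_mem_nil, or_false] at ha hb
        rcases ha with rfl | rfl <;> rcases hb with rfl | rfl
        · exact Commute.refl _
        · exact hcq
        · exact hcq.symm
        · exact Commute.refl _
    have l2 : PMl D0 2 (t r * t q) [t (φ x r), t (φ x q)] := by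
      refine ⟨?_, rfl, ?_, ?_, by simpa using e⟩
      · simp only [List.nodup_cons, List.mem_singleton, List.not_mem_nil, not_false_eq_true, List.nodup_nil, and_self,
          and_true]
        exact fun k => nq ((φ x).injective (t_inj k))
      · intro a ha
        simp only [List.mem_cons, List.not_mem_nil, or_false] at ha
        rcases ha with rfl | rfl <;> exact t_mem _
      · intro a ha b hb
        have hcq' : Commute (t (φ x r)) (t (φ x q)) := comm_φ.2 hcq
        simp only [List.mem_cons, List.not_mem_nil, or_false] at ha hb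
        rcases ha with rfl | rfl <;> rcases hb with rfl | rfl
        · exact Commute.refl _
        · exact hcq'
        · exact hcq'.symm
        · exact Commute.refl _
    have h3 := (fp2_0 _ _ _ l2 l1 (t (φ x r))).1 (by simp)
    simp only [List.mem_cons, List.not_mem_nil, or_false] at h3
    rcases h3 with h3 | h3
    · exact Or.inl (t_inj h3)
    · exact Or.inr (t_inj h3)
  rcases key h1 c1 n1 with h | h
  · exact h
  · rcases key h2 c2 n2 with h' | h'
    · exact h'
    · exact absurd (h.symm.trans h') n12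

/-- The twins of the base labels. -/
def triples : List (ℕ × ℕ × ℕ) := [(40, 154, 3399), (43, 424, 434), (62, 120, 3280), (66, 539, 550)]

theorem triples_chk : triples.all (fun x => chkA x.1 && chkA x.2.1 && chkA x.2.2 && same (code x.1) (code x.2.1) &&
    same (code x.1) (code x.2.2) && !Nat.beq x.1 x.2.1 && !Nat.beq x.1 x.2.2 && !Nat.beq x.2.1 x.2.2) = true := by
  decide +kernel

theorem fix_triple {x : G0} (hx : ∀ y ∈ EE, Commute x y) {a : ℕ × ℕ × ℕ} (ha : a ∈ triples) : φ x (lab a.1) = lab a.1 := by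
  have h := List.all_eq_true.1 triples_chk a ha
  simp only [Bool.and_eq_true, Bool.not_eq_true'] at h
  obtain ⟨⟨⟨⟨⟨⟨⟨h1, h2⟩, h3⟩, h4⟩, h5⟩, h6⟩, h7⟩, h8⟩ := h
  obtain ⟨a1, a1'⟩ := AA_lab h1
  obtain ⟨a2, a2'⟩ := AA_lab h2
  obtain ⟨a3, a3'⟩ := AA_lab h3
  have P : PP (code a.1) := by
    have := AA_PP a1
    rwa [lab_val a1'] at this
  have e1 : cl (lab a.1) = cl (lab a.2.1) := by
    unfold cl
    rw [lab_val a1', lab_val a2']
    exact (T_same P h4).symm
  have e2 : cl (lab a.1) = cl (lab a.2.2) := by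
    unfold cl
    rw [lab_val a1', lab_val a3']
    exact (T_same P h5).symm
  refine fix_of_twins hx a1 a2 a3 e1 e2 ?_ ?_ ?_
  · intro k
    have := congrArg Fin.val k
    rw [lab_val a1', lab_val a2'] at this
    exact absurd this (Nat.ne_of_beq_eq_false h6)
  · intro k
    have := congrArg Fin.val k
    rw [lab_val a1', lab_val a3'] at this
    exact absurd this (Nat.ne_of_beq_eq_false h7)
  · intro k
    have := congrArg Fin.val k
    rw [lab_val a2', lab_val a3'] at this
    exact absurd this (Nat.ne_of_beq_eq_false h8)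

/-- The centre of the kernel is `V`. -/
theorem center_EE {x : G0} (hxE : x ∈ EE) (hx : ∀ y ∈ EE, Commute x y) : x ∈ V0 := by
  apply mem_V0_of_fix hxE
  intro b hb
  simp only [List.mem_cons, List.not_mem_nil, or_false] at hb
  rcases hb with rfl | rfl | rfl | rfl
  · exact fix_triple hx (a := (66, 539, 550)) (by decide)
  · exact fix_triple hx (a := (62, 120, 3280)) (by decide)
  · exact fix_triple hx (a := (43, 424, 434)) (by decide)
  · exact fix_triple hx (a := (40, 154, 3399)) (by decide)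

/-! ### A complement -/

/-- A hyperplane avoiding a given vector. -/
theorem exists_complement {G : Type*} [Group G] [Finite G] {E Z : Subgroup G} (hZE : Z ≤ E) {a : G} (haE : a ∈ E) (ha : a ∉ Z)
    (hc : ∀ x ∈ E, ∀ y ∈ E, x * y * x⁻¹ * y⁻¹ ∈ Z) (hs : ∀ x ∈ E, x ^ 2 ∈ Z) :
    ∃ M : Subgroup G, Z ≤ M ∧ M ≤ E ∧ a ∉ M ∧ ∀ x ∈ E, x ∈ M ∨ a * x ∈ M := by
  classical
  obtain ⟨M, hM⟩ := Set.Finite.exists_maximal (Set.toFinite {M : Subgroup G | Z ≤ M ∧ M ≤ E ∧ a ∉ M}) ⟨Z, le_rfl, hZE, ha⟩
  obtain ⟨⟨h1, h2, h3⟩, hmax⟩ := hM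
  refine ⟨M, h1, h2, h3, fun x hx => ?_⟩
  by_cases hxM : x ∈ M
  · exact Or.inl hxM
  right
  -- conjugation preserves `M`
  have hconj : ∀ y ∈ E, ∀ m ∈ M, y * m * y⁻¹ ∈ M := by
    intro y hy m hm
    have h4 := h1 (hc y hy m (h2 hm))
    have e : y * m * y⁻¹ = y * m * y⁻¹ * m⁻¹ * m := by group
    rw [e]
    exact mul_mem h4 hm
  have hx2 : x * x ∈ M := by
    rw [← pow_two]
    exact h1 (hs x hx)
  let M' : Subgroup G :=
    { carrier := {y | y ∈ E ∧ (y ∈ M ∨ y * x⁻¹ ∈ M)}
      mul_mem' := by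
        rintro u v ⟨hu, hu'⟩ ⟨hv, hv'⟩
        refine ⟨mul_mem hu hv, ?_⟩
        rcases hu' with hu' | hu' <;> rcases hv' with hv' | hv'
        · exact Or.inl (mul_mem hu' hv')
        · right
          rw [mul_assoc]
          exact mul_mem hu' hv'
        · right
          have e : u * v * x⁻¹ = (u * x⁻¹) * (x * v * x⁻¹) := by group
          rw [e]
          exact mul_mem hu' (hconj x hx v hv')
        · left
          have e : u * v = (u * x⁻¹) * (x * (v * x⁻¹) * x⁻¹) * (x * x) := by group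
          rw [e]
          exact mul_mem (mul_mem hu' (hconj x hx _ hv')) hx2
      one_mem' := ⟨one_mem _, Or.inl (one_mem _)⟩
      inv_mem' := by
        rintro u ⟨hu, hu'⟩
        refine ⟨inv_mem hu, ?_⟩
        rcases hu' with hu' | hu'
        · exact Or.inl (inv_mem hu')
        · right
          have e2 : u⁻¹ * x⁻¹ = (x⁻¹ * (u * x⁻¹)⁻¹ * x⁻¹⁻¹) * (x * x)⁻¹ := by group
          rw [e2]
          exact mul_mem (hconj _ (inv_mem hx) _ (inv_mem hu')) (inv_mem hx2) }
  have hM' : M ≤ M' := fun y hy => ⟨h2 hy, Or.inl hy⟩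
  have hx' : x ∈ M' := ⟨hx, Or.inr (by simp)⟩
  have ha' : a ∈ M' := by
    by_contra hna
    have h5 : M' ≤ M := hmax ⟨h1.trans hM', fun y hy => hy.1, hna⟩ hM'
    exact hxM (h5 hx')
  rcases ha'.2 with h6 | h6
  · exact absurd h6 h3
  · have hax : a * x⁻¹ ∈ M := h6
    have e : a * x = (a * (a * x⁻¹)⁻¹ * a⁻¹) * (a * a) := by group
    rw [e]
    exact mul_mem (hconj a haE _ (inv_mem hax)) (by
      rw [← pow_two]
      exact h1 (hs a haE))

/-- The subgroup `E₀` and the extraspecial structure. -/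
theorem exists_extraspecial : ∃ (E : Type) (_ : Group E) (_ : Finite E), IsExtraspecial 2 E ∧ Nat.card E = 2 ^ 9 ∧
    Nonempty (↥EE ≃* Multiplicative (ZMod 2) × E) := by
  have ha0J : a0 ∉ J0 := by
    rintro (h | h)
    · exact tt0.ne_one _ a0_mem h
    · have : t lb6 = 1 := by
        have e : a0 * 1 = a0 * t lb6 := by rw [mul_one]; exact h
        exact (mul_left_cancel e).symm
      exact tt0.ne_one _ (t_mem _) this
  have hJE : J0 ≤ EE := J0_le_V0.trans V0_le_EE
  obtain ⟨M, h1, h2, h3, h4⟩ := exists_complement hJE a0_mem_EE ha0J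
    (fun x hx y hy => cmJ_all (by rw [E2_eq]; exact hx) (by rw [E2_eq]; exact hy))
    (fun x hx => sqJ_all (by rw [E2_eq]; exact hx))
  have hEK : EE ≤ K0 := by
    rw [← E2_eq]
    exact E2_le_K0
  have ha0c : ∀ y ∈ EE, Commute a0 y := fun y hy => V0_central (mem_V0.2 (by simp)) (hEK hy)
  -- the isomorphism
  let s : Multiplicative (ZMod 2) → G0 := fun i => if Multiplicative.toAdd i = 0 then 1 else a0
  have s_mul : ∀ i i', s (i * i') = s i * s i' := by
    have key : ∀ i : Multiplicative (ZMod 2), i = 1 ∨ i = Multiplicative.ofAdd 1 := by decide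
    have e0 : s 1 = 1 := if_pos rfl
    have e1 : s (Multiplicative.ofAdd 1) = a0 := if_neg (by decide)
    have e2 : (Multiplicative.ofAdd (1 : ZMod 2)) * (Multiplicative.ofAdd 1) = 1 := by decide
    intro i i'
    rcases key i with rfl | rfl <;> rcases key i' with rfl | rfl
    · simp [e0]
    · simp [e0]
    · simp [e0]
    · rw [e2, e0, e1, a0_sq]
  have s_mem : ∀ i, s i ∈ EE := by
    intro i
    show (if Multiplicative.toAdd i = 0 then 1 else a0) ∈ EE
    split_ifs
    · exact one_mem _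
    · exact a0_mem_EE
  let f : Multiplicative (ZMod 2) × ↥M →* ↥EE := MonoidHom.mk'
    (fun x => ⟨s x.1 * x.2.1, mul_mem (s_mem _) (h2 x.2.2)⟩) (by
      rintro ⟨i, m⟩ ⟨i', m'⟩
      apply Subtype.ext
      show s (i * i') * (m.1 * m'.1) = s i * m.1 * (s i' * m'.1)
      rw [s_mul]
      have hc : Commute (s i') m.1 := by
        show Commute (if Multiplicative.toAdd i' = 0 then 1 else a0) m.1
        split_ifs
        · exact Commute.one_left _
        · exact ha0c _ (h2 m.2)
      calc s i * s i' * (m.1 * m'.1) = s i * (s i' * m.1) * m'.1 := by group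
        _ = s i * (m.1 * s i') * m'.1 := by rw [hc.eq]
        _ = s i * m.1 * (s i' * m'.1) := by group)
  have hf : Function.Bijective f := by
    constructor
    · rw [injective_iff_map_eq_one]
      rintro ⟨i, m⟩ h
      have h5 : s i * m.1 = 1 := congrArg Subtype.val h
      have key : ∀ i : Multiplicative (ZMod 2), i = 1 ∨ i = Multiplicative.ofAdd 1 := by decide
      rcases key i with rfl | rfl
      · have e0 : s 1 = 1 := if_pos rfl
        rw [e0, one_mul] at h5
        have : m = 1 := Subtype.ext h5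
        rw [this]
        rfl
      · exfalso
        have e1 : s (Multiplicative.ofAdd 1) = a0 := if_neg (by decide)
        rw [e1] at h5
        apply h3
        have : a0 = m.1⁻¹ := eq_inv_of_mul_eq_one_left h5
        rw [this]
        exact inv_mem m.2
    · rintro ⟨x, hx⟩
      rcases h4 x hx with h | h
      · refine ⟨(1, ⟨x, h⟩), Subtype.ext ?_⟩
        show s 1 * x = x
        rw [show s 1 = 1 from if_pos rfl, one_mul]
      · refine ⟨(Multiplicative.ofAdd 1, ⟨a0 * x, h⟩), Subtype.ext ?_⟩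
        show s (Multiplicative.ofAdd 1) * (a0 * x) = x
        rw [show s (Multiplicative.ofAdd 1) = a0 from if_neg (by decide), ← mul_assoc, a0_sq, one_mul]
  have hcardM : Nat.card ↥M = 512 := by
    have h5 := Nat.card_congr (MulEquiv.ofBijective f hf).toEquiv
    rw [card_EE, Nat.card_prod, Nat.card_eq_fintype_card (α := Multiplicative (ZMod 2))] at h5
    have h6 : Fintype.card (Multiplicative (ZMod 2)) = 2 := rfl
    rw [h6] at h5
    omega
  have hb0 : t lb6 ∉ M := by
    intro k
    apply h3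
    have e : a0 = t lb6 * j0 := by
      show a0 = t lb6 * (a0 * t lb6)
      rw [← mul_assoc, comm_a0_b0.symm.eq, mul_assoc, b0_sq, mul_one]
    rw [e]
    exact mul_mem k (h1 (Or.inr rfl))
  let z : ↥M := ⟨j0, h1 (Or.inr rfl)⟩
  have hz : z ≠ 1 := by
    intro k
    have hk : a0 * t lb6 = 1 := congrArg Subtype.val k
    have h7 : t lb6 = a0⁻¹ := eq_inv_of_mul_eq_one_right hk
    rw [inv_eq_of_mul_eq_one_left a0_sq] at h7
    have h8 := congrArg Fin.val (t_inj (h7.trans t_pt0.symm))
    exact absurd h8 (by decide)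
  have hcen : ∀ x : ↥M, x ∈ Subgroup.center ↥M ↔ x = 1 ∨ x = z := by
    intro x
    constructor
    · intro hx
      have hxE : x.1 ∈ EE := h2 x.2
      have hcomm : ∀ y ∈ EE, Commute x.1 y := by
        intro y hy
        rcases h4 y hy with h | h
        · exact (congrArg Subtype.val (Subgroup.mem_center_iff.1 hx ⟨y, h⟩)).symm
        · have h5 : Commute x.1 (a0 * y) := (congrArg Subtype.val (Subgroup.mem_center_iff.1 hx ⟨a0 * y, h⟩)).symm
          have h6 : Commute x.1 a0 := (ha0c _ hxE).symm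
          have e : y = a0 * (a0 * y) := by
            rw [← mul_assoc, a0_sq, one_mul]
          rw [e]
          exact h6.mul_right h5
      rcases mem_V0.1 (center_EE hxE hcomm) with e | e | e | e
      · exact Or.inl (Subtype.ext e)
      · exfalso
        apply h3
        rw [← e]
        exact x.2
      · exfalso
        apply hb0
        rw [← e]
        exact x.2
      · exact Or.inr (Subtype.ext e)
    · rintro (rfl | rfl)
      · exact one_mem _
      · rw [Subgroup.mem_center_iff]
        intro y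
        have hc : Commute (a0 * t lb6) y.1 := V0_central (mem_V0.2 (by simp)) (hEK (h2 y.2))
        exact Subtype.ext hc.symm.eq
  have hcom : ∀ x y : ↥M, x * y * x⁻¹ * y⁻¹ = 1 ∨ x * y * x⁻¹ * y⁻¹ = z := by
    intro x y
    have h5 := cmJ_all (by rw [E2_eq]; exact h2 x.2) (by rw [E2_eq]; exact h2 y.2)
    rcases h5 with h5 | h5
    · exact Or.inl (Subtype.ext h5)
    · exact Or.inr (Subtype.ext h5)
  have hsq : ∀ x : ↥M, x ^ 2 = 1 ∨ x ^ 2 = z := by
    intro x
    have h5 := sqJ_all (x := x.1) (by rw [E2_eq]; exact h2 x.2)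
    rcases h5 with h5 | h5
    · exact Or.inl (Subtype.ext h5)
    · exact Or.inr (Subtype.ext h5)
  have hex : ∃ x y : ↥M, ⁅x, y⁆ = z := by
    by_contra hcon
    push Not at hcon
    have hall : ∀ x : ↥M, x ∈ Subgroup.center ↥M := by
      intro x
      rw [Subgroup.mem_center_iff]
      intro y
      rcases hcom y x with h5 | h5
      · calc y * x = y * x * y⁻¹ * x⁻¹ * x * y := by group
          _ = x * y := by rw [h5]; group
      · exact absurd h5 (hcon y x)
    have hle : Nat.card ↥M ≤ 2 := by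
      classical
      have hi : Function.Injective (fun x : ↥M => if x = 1 then (0 : Fin 2) else 1) := by
        intro x y hxy
        rcases (hcen x).1 (hall x) with hx | hx <;> rcases (hcen y).1 (hall y) with hy | hy
        · rw [hx, hy]
        · exfalso
          subst hx
          subst hy
          simp [hz] at hxy
        · exfalso
          subst hx
          subst hy
          simp [hz] at hxy
        · rw [hx, hy]
      have := Nat.card_le_card_of_injective _ hi
      simpa using this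
    rw [hcardM] at hle
    omega
  refine ⟨↥M, inferInstance, inferInstance, ?_, by rw [hcardM]; norm_num, ⟨(MulEquiv.ofBijective f hf).symm⟩⟩
  exact Cfsg.Agent.Lib.PGroup.ExtraMk.isExtraspecial_of (IsPGroup.of_card (n := 9) (by rw [hcardM]; norm_num)) z hz hcen
    hcom hsq hex

/-! ### The conclusion -/

/-- The statement for a group. -/
def ConclF (X : Type*) [Group X] : Prop :=
  ∃ _ : (generalizedFittingSubgroup X).Normal,
    (∃ (E : Type) (_ : Group E) (_ : Finite E), IsExtraspecial 2 E ∧ Nat.card E = 2 ^ 9 ∧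
      Nonempty (↥(generalizedFittingSubgroup X) ≃* Multiplicative (ZMod 2) × E)) ∧
    Nonempty (X ⧸ generalizedFittingSubgroup X ≃* Cfsg.isometryGroup (ZMod 2) (Cfsg.quadFormMinus 2 (ZMod 2) 1 1))

theorem conclF_C0 : ConclF ↥C0 := by
  have hn : (generalizedFittingSubgroup ↥C0).Normal := by
    rw [fstar_eq]
    exact kerX_normal
  refine ⟨hn, ?_, ?_⟩
  · obtain ⟨E, i1, i2, h1, h2, ⟨e⟩⟩ := exists_extraspecial
    refine ⟨E, i1, i2, h1, h2, ⟨?_⟩⟩
    exact (MulEquiv.subgroupCongr fstar_eq).trans ((Subgroup.equivMapOfInjective kerX C0.subtype C0.subtype_injective).trans e)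
  · obtain ⟨e⟩ := Orth.iso_aut
    exact ⟨(QuotientGroup.quotientMulEquivOfEq fstar_eq).trans
      ((QuotientGroup.quotientKerEquivOfSurjective autC autC_surj).trans e)⟩

theorem conclF_map {X Y : Type*} [Group X] [Group Y] (f : X ≃* Y) (h : ConclF Y) : ConclF X := by
  obtain ⟨hn, ⟨E, i1, i2, h1, h2, ⟨e⟩⟩, ⟨e'⟩⟩ := h
  have hm := Cfsg.Agent.Lib.Components.Transport.generalizedFittingSubgroup_map_equiv f
  have hn' : (generalizedFittingSubgroup X).Normal := inferInstance
  let g : ↥(generalizedFittingSubgroup X) ≃* ↥(generalizedFittingSubgroup Y) :=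
    (f.subgroupMap _).trans (MulEquiv.subgroupCongr hm)
  refine ⟨hn', ⟨E, i1, i2, h1, h2, ⟨g.trans e⟩⟩, ⟨?_⟩⟩
  exact (QuotientGroup.congr _ _ f hm).trans e'

/-- **The generalized Fitting subgroup of the centralizer of a product of two commuting transpositions** in type `M(22)`. -/
theorem main_fstar {G : Type*} [Group G] [Finite G] {D : Set G} (hD : IsThreeTranspositionGroup D)
    (hprim : IsPrimitiveUnderConj D) (ht : IsOfTypeM22 G D) (d₁ d₂ : G) (h₁ : d₁ ∈ D) (h₂ : d₂ ∈ D) (hne : d₁ ≠ d₂)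
    (hc : Commute d₁ d₂) : ConclF ↥(Subgroup.centralizer ({d₁ * d₂} : Set G)) := by
  obtain ⟨e, he⟩ := Explicit.exists_iso hD hprim ht
  obtain ⟨g, hg1, hg2⟩ := Explicit.pair_nf ((he _).1 h₁) ((he _).1 h₂) (hc.map e) (fun k => hne (e.injective k))
  let f : G ≃* Explicit.G0 := e.trans (MulAut.conj g)
  have f1 : f d₁ = Explicit.a0 := hg1
  have f2 : f d₂ = Explicit.tn 6 := hg2
  have hC : (Subgroup.centralizer ({d₁ * d₂} : Set G)).map f.toMonoidHom = C0 := by
    rw [map_centralizer, Set.image_singleton, map_mul, f1, f2, Explicit.tn_6']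
    rfl
  exact conclF_map ((f.subgroupMap _).trans (MulEquiv.subgroupCongr hC)) conclF_C0

end Cfsg.Agent.Lib.Fischer.M22.Pair
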